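-- Odd characteristic: the quadratic character, Gauss sums, and the degree and unipotent value of
-- a function with square-invariant unipotent multiplicities.
import Mathlib
import Cfsg.Agent.Lib.Helper39.UOrth

set_option autoImplicit false
set_option linter.unusedSectionVars false
set_option linter.unusedVariables false
set_option linter.style.haveILetI false

namespace Cfsg.Agent.Lib.Helper39.SL2Odd

open Cfsg.Agent.Lib.Helper39.UOrth
open scoped ComplexConjugate

variable {F : Type*} [Field F] [Fintype F] [DecidableEq F]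

theorem ringChar_ne_two_of_odd (hodd : Odd (Fintype.card F)) : ringChar F ≠ 2 := by
  intro h
  have := FiniteField.even_card_iff_char_two.mp h
  rcases hodd with ⟨k, hk⟩
  omega

/-- The quadratic character with complex values. -/
noncomputable def qc (F : Type*) [Field F] [Fintype F] [DecidableEq F] : MulChar F ℂ :=
  (quadraticChar F).ringHomComp (Int.castRingHom ℂ)

theorem qc_apply (t : F) : qc F t = ((quadraticChar F t : ℤ) : ℂ) := rfl

theorem qc_zero : qc F (0 : F) = 0 := by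
  rw [qc_apply, quadraticChar_zero]
  simp

theorem qc_of_isSquare {t : F} (ht : t ≠ 0) (h : IsSquare t) : qc F t = 1 := by
  rw [qc_apply, (quadraticChar_one_iff_isSquare ht).mpr h]
  simp

theorem qc_of_not_isSquare {t : F} (h : ¬ IsSquare t) : qc F t = -1 := by
  rw [qc_apply, quadraticChar_neg_one_iff_not_isSquare.mpr h]
  simp

theorem qc_isQuadratic : (qc F).IsQuadratic :=
  MulChar.IsQuadratic.comp (quadraticChar_isQuadratic F) (Int.castRingHom ℂ)

theorem qc_sq : qc F ^ 2 = 1 := qc_isQuadratic.sq_eq_one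

theorem qc_ne_one (hF : ringChar F ≠ 2) : qc F ≠ 1 := by
  obtain ⟨ν, hν⟩ := FiniteField.exists_nonsquare hF
  intro h
  have h1 := qc_of_not_isSquare hν
  have hν0 : ν ≠ 0 := by
    rintro rfl
    exact hν ⟨0, by simp⟩
  rw [h, MulChar.one_apply (isUnit_iff_ne_zero.mpr hν0)] at h1
  norm_num at h1

theorem sum_qc (hF : ringChar F ≠ 2) : ∑ t : F, qc F t = 0 :=
  MulChar.sum_eq_zero_of_ne_one (qc_ne_one hF)

/-- The square of the quadratic Gauss sum. -/
theorem gauss_sq (hF : ringChar F ≠ 2) (hodd : Odd (Fintype.card F)) (ψ₀ : AddChar F ℂ)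
    (hψ₀ : ψ₀.IsPrimitive) :
    gaussSum (qc F) ψ₀ ^ 2 = (-1 : ℂ) ^ ((Fintype.card F - 1) / 2) * (Fintype.card F : ℂ) := by
  rw [gaussSum_sq (qc_ne_one hF) qc_isQuadratic hψ₀, qc_apply, quadraticChar_neg_one hF,
    ZMod.χ₄_eq_neg_one_pow (Nat.odd_iff.mp hodd)]
  have : Fintype.card F / 2 = (Fintype.card F - 1) / 2 := by
    rcases hodd with ⟨k, hk⟩
    omega
  rw [this]
  push_cast
  ring

/-- Every nonsquare is the product of a fixed nonsquare and a nonzero square. -/
theorem nonsquare_eq (hF : ringChar F ≠ 2) {ν t : F} (hν : ¬ IsSquare ν) (ht : ¬ IsSquare t) :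
    ∃ s : F, s ≠ 0 ∧ t = ν * s ^ 2 := by
  have hν0 : ν ≠ 0 := by
    rintro rfl
    exact hν ⟨0, by simp⟩
  have ht0 : t ≠ 0 := by
    rintro rfl
    exact ht ⟨0, by simp⟩
  have h1 : quadraticChar F (t / ν) = 1 := by
    rw [div_eq_mul_inv, map_mul, quadraticChar_neg_one_iff_not_isSquare.mpr ht]
    have h2 : quadraticChar F ν⁻¹ = -1 := by
      rw [quadraticChar_neg_one_iff_not_isSquare]
      intro h
      apply hν
      obtain ⟨r, hr⟩ := h
      refine ⟨r⁻¹, ?_⟩
      rw [← mul_inv, ← hr, inv_inv]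
    rw [h2]
    norm_num
  obtain ⟨s, hs⟩ := (quadraticChar_one_iff_isSquare (div_ne_zero ht0 hν0)).mp h1
  have hs0 : s ≠ 0 := by
    rintro rfl
    simp at hs
    rcases hs with h | h
    · exact ht0 h
    · exact hν0 h
  refine ⟨s, hs0, ?_⟩
  field_simp at hs
  linear_combination hs

/-- A quadratic multiplicative character with complex values is the quadratic character. -/
theorem quad_unique (hF : ringChar F ≠ 2) (α : MulChar F ℂ) (hα : α ^ 2 = 1) (hα1 : α ≠ 1) :
    α = qc F := by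
  have hsq : ∀ t : F, t ≠ 0 → α t = 1 ∨ α t = -1 := by
    intro t ht
    have h1 : (α ^ 2) t = 1 := by
      rw [hα, MulChar.one_apply (isUnit_iff_ne_zero.mpr ht)]
    rw [MulChar.pow_apply' _ two_ne_zero] at h1
    exact sq_eq_one_iff.mp h1
  have hone : ∀ s : F, s ≠ 0 → α (s ^ 2) = 1 := by
    intro s hs
    rw [map_pow]
    rcases hsq s hs with h | h <;> rw [h] <;> norm_num
  -- some nonsquare where `α = -1`
  have hex : ∃ ν : F, ¬ IsSquare ν ∧ α ν = -1 := by
    by_contra hcon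
    push Not at hcon
    apply hα1
    ext u
    rw [MulChar.one_apply u.isUnit]
    by_cases hsqu : IsSquare (u : F)
    · obtain ⟨r, hr⟩ := hsqu
      have hr0 : r ≠ 0 := by
        rintro rfl
        simp at hr
      rw [hr, ← sq]
      exact hone r hr0
    · rcases hsq u u.ne_zero with h | h
      · exact h
      · exact absurd h (hcon u hsqu)
  obtain ⟨ν, hν, hαν⟩ := hex
  ext u
  by_cases hsqu : IsSquare (u : F)
  · obtain ⟨r, hr⟩ := hsqu
    have hr0 : r ≠ 0 := by
      rintro rfl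
      simp at hr
    rw [qc_of_isSquare u.ne_zero ⟨r, hr⟩, hr, ← sq]
    exact hone r hr0
  · obtain ⟨s, hs0, hs⟩ := nonsquare_eq hF hν hsqu
    rw [qc_of_not_isSquare hsqu, hs, map_mul, hαν, hone s hs0]
    ring

/-- A square-invariant function on `F` in terms of its values at `1` and at a nonsquare. -/
theorem m_eq (hF : ringChar F ≠ 2) (m : F → ℕ) (hmsq : ∀ t s : F, s ≠ 0 → m (t * s ^ 2) = m t)
    {ν : F} (hν : ¬ IsSquare ν) (t : F) (ht : t ≠ 0) :
    (m t : ℂ) = ((m 1 : ℂ) * (1 + qc F t) + (m ν : ℂ) * (1 - qc F t)) / 2 := by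
  by_cases hsq : IsSquare t
  · obtain ⟨r, hr⟩ := hsq
    have hr0 : r ≠ 0 := by
      rintro rfl
      simp at hr
      exact ht hr
    have h1 : m t = m 1 := by
      have := hmsq 1 r hr0
      rw [one_mul, sq, ← hr] at this
      exact this
    rw [qc_of_isSquare ht ⟨r, hr⟩, h1]
    ring
  · obtain ⟨s, hs0, hs⟩ := nonsquare_eq hF hν hsq
    have h1 : m t = m ν := by
      rw [hs]
      exact hmsq ν s hs0
    rw [qc_of_not_isSquare hsq, h1]
    ring

/-- The sum of a square-invariant function over the nonzero elements. -/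
theorem sum_m (hF : ringChar F ≠ 2) (hodd : Odd (Fintype.card F)) (m : F → ℕ)
    (hmsq : ∀ t s : F, s ≠ 0 → m (t * s ^ 2) = m t) {ν : F} (hν : ¬ IsSquare ν) :
    ∑ t : F, m t = m 0 + (m 1 + m ν) * ((Fintype.card F - 1) / 2) := by
  have h1 : ((∑ t ∈ Finset.univ.erase (0 : F), m t : ℕ) : ℂ) =
      (((m 1 + m ν) * ((Fintype.card F - 1) / 2) : ℕ) : ℂ) := by
    push_cast
    rw [Finset.sum_congr rfl (fun t ht => m_eq hF m hmsq hν t (Finset.ne_of_mem_erase ht))]
    have h2 : ∑ t ∈ Finset.univ.erase (0 : F), qc F t = 0 := by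
      have := Finset.add_sum_erase Finset.univ (fun t : F => qc F t) (Finset.mem_univ (0 : F))
      rw [sum_qc hF, qc_zero, zero_add] at this
      exact this
    have h3 : (((Fintype.card F - 1) / 2 : ℕ) : ℂ) = ((Fintype.card F : ℂ) - 1) / 2 := by
      rcases hodd with ⟨k, hk⟩
      rw [hk]
      have : (2 * k + 1 - 1) / 2 = k := by omega
      rw [this]
      push_cast
      ring
    have h4 : ∑ t ∈ Finset.univ.erase (0 : F),
        ((m 1 : ℂ) * (1 + qc F t) + (m ν : ℂ) * (1 - qc F t)) / 2 =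
        ((m 1 : ℂ) + (m ν : ℂ)) / 2 * ∑ t ∈ Finset.univ.erase (0 : F), (1 : ℂ) +
        ((m 1 : ℂ) - (m ν : ℂ)) / 2 * ∑ t ∈ Finset.univ.erase (0 : F), qc F t := by
      rw [Finset.mul_sum, Finset.mul_sum, ← Finset.sum_add_distrib]
      apply Finset.sum_congr rfl
      intro t _
      ring
    rw [h4, h2, h3]
    simp only [Finset.sum_const, Finset.card_erase_of_mem (Finset.mem_univ (0 : F)),
      Finset.card_univ, nsmul_eq_mul, mul_one, mul_zero, add_zero]
    rw [Nat.cast_sub Fintype.card_pos]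
    push_cast
    ring
  have h5 : ∑ t ∈ Finset.univ.erase (0 : F), m t = (m 1 + m ν) * ((Fintype.card F - 1) / 2) := by
    exact_mod_cast h1
  rw [← Finset.add_sum_erase Finset.univ m (Finset.mem_univ (0 : F)), h5]

/-- The value at the unipotent element in terms of the quadratic Gauss sum. -/
theorem sum_m_psi (hF : ringChar F ≠ 2) (m : F → ℕ)
    (hmsq : ∀ t s : F, s ≠ 0 → m (t * s ^ 2) = m t) {ν : F} (hν : ¬ IsSquare ν)
    (ψ₀ : AddChar F ℂ) (hψ₀ : ψ₀.IsPrimitive) :
    ∑ t : F, (m t : ℂ) * ψ₀ (t * 1) = (m 0 : ℂ) - ((m 1 : ℂ) + (m ν : ℂ)) / 2 +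
      ((m 1 : ℂ) - (m ν : ℂ)) / 2 * gaussSum (qc F) ψ₀ := by
  rw [← Finset.add_sum_erase Finset.univ _ (Finset.mem_univ (0 : F))]
  have h1 : ∀ t ∈ Finset.univ.erase (0 : F), (m t : ℂ) * ψ₀ (t * 1) =
      ((m 1 : ℂ) + (m ν : ℂ)) / 2 * ψ₀ (1 * t) +
      ((m 1 : ℂ) - (m ν : ℂ)) / 2 * (qc F t * ψ₀ t) := by
    intro t ht
    rw [m_eq hF m hmsq hν t (Finset.ne_of_mem_erase ht), mul_one, one_mul]
    ring
  rw [Finset.sum_congr rfl h1, Finset.sum_add_distrib, ← Finset.mul_sum, ← Finset.mul_sum,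
    sum_erase_mulShift ψ₀ hψ₀ 1]
  have h2 : ∑ t ∈ Finset.univ.erase (0 : F), qc F t * ψ₀ t = gaussSum (qc F) ψ₀ := by
    have := Finset.add_sum_erase Finset.univ (fun t : F => qc F t * ψ₀ t) (Finset.mem_univ (0 : F))
    rw [qc_zero, zero_mul, zero_add] at this
    exact this
  rw [h2]
  simp
  ring

end Cfsg.Agent.Lib.Helper39.SL2Odd
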