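-- Conjugation of SL_2 by the diagonal element diag(ν, 1) of GL_2.
import Mathlib
import Cfsg.Prelude.Def_Characters
import Cfsg.Prelude.Def_ParabolicCharacters
import Cfsg.Agent.Lib.Helper39.SL2Deg
import Cfsg.Agent.Lib.Helper39.SL2Conj
import Cfsg.Agent.S2325

set_option autoImplicit false
set_option linter.unusedSectionVars false
set_option linter.unusedVariables false
set_option linter.style.haveILetI false

namespace Cfsg.Agent.Lib.Helper39.SL2Twist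

open Cfsg Matrix Cfsg.Agent.Lib.CT Cfsg.Agent.Lib.Helper39.Borel2 Cfsg.Agent.Lib.Helper39.UMult
  Cfsg.Agent.Lib.Helper39.UBorel Cfsg.Agent.Lib.Helper39.UOrth Cfsg.Agent.Lib.Helper39.GL2Inst
  Cfsg.Agent.Lib.Helper39.PSInst Cfsg.Agent.Lib.CT.Wedderburn Cfsg.Agent.Lib.Helper39.GL2T1
  Cfsg.Agent.Lib.Helper39.MulCharOrth Cfsg.Agent.Lib.Helper39.Decomp Cfsg.Agent.Lib.Helper39.SL2T1
  Cfsg.Agent.Lib.Helper39.SL2PS Cfsg.Agent.Lib.Helper39.SL2Tri Cfsg.Agent.Lib.CT.FrobRec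
  Cfsg.Agent.Lib.Helper39.SL2Conj
open scoped ComplexConjugate

variable {F : Type*} [Field F]

/-- The diagonal matrix `diag(ν, 1)`. -/
def Dm (ν : Fˣ) : Matrix (Fin 2) (Fin 2) F := !![(ν : F), 0; 0, 1]

theorem Dm_mul (ν : Fˣ) : Dm ν * Dm ν⁻¹ = 1 := by
  ext i j
  fin_cases i <;> fin_cases j <;> simp [Dm, Matrix.mul_apply, Fin.sum_univ_two]

theorem Dm_mul' (ν : Fˣ) : Dm ν⁻¹ * Dm ν = 1 := by
  have := Dm_mul ν⁻¹
  rwa [inv_inv] at this

theorem Dm_det (ν : Fˣ) : (Dm ν).det = (ν : F) := by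
  simp [Dm, Matrix.det_fin_two]

/-- Conjugation by `diag(ν, 1)` as a map of `SL_2`. -/
def twFun (ν : Fˣ) (g : Matrix.SpecialLinearGroup (Fin 2) F) : Matrix.SpecialLinearGroup (Fin 2) F :=
  ⟨Dm ν * (g : Matrix (Fin 2) (Fin 2) F) * Dm ν⁻¹, by
    rw [Matrix.det_mul, Matrix.det_mul, Dm_det, Dm_det, g.2]
    simp⟩

theorem twFun_val (ν : Fˣ) (g : Matrix.SpecialLinearGroup (Fin 2) F) :
    ((twFun ν g : Matrix.SpecialLinearGroup (Fin 2) F) : Matrix (Fin 2) (Fin 2) F) =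
      Dm ν * (g : Matrix (Fin 2) (Fin 2) F) * Dm ν⁻¹ := rfl

/-- Conjugation by `diag(ν, 1)` as an automorphism of `SL_2`. -/
def tw (ν : Fˣ) : Matrix.SpecialLinearGroup (Fin 2) F ≃* Matrix.SpecialLinearGroup (Fin 2) F where
  toFun := twFun ν
  invFun := twFun ν⁻¹
  left_inv g := by
    apply Subtype.ext
    rw [twFun_val, twFun_val, inv_inv]
    calc Dm ν⁻¹ * (Dm ν * (g : Matrix (Fin 2) (Fin 2) F) * Dm ν⁻¹) * Dm ν
        = (Dm ν⁻¹ * Dm ν) * (g : Matrix (Fin 2) (Fin 2) F) * (Dm ν⁻¹ * Dm ν) := by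
          simp only [mul_assoc]
      _ = (g : Matrix (Fin 2) (Fin 2) F) := by rw [Dm_mul', one_mul, mul_one]
  right_inv g := by
    apply Subtype.ext
    rw [twFun_val, twFun_val, inv_inv]
    calc Dm ν * (Dm ν⁻¹ * (g : Matrix (Fin 2) (Fin 2) F) * Dm ν) * Dm ν⁻¹
        = (Dm ν * Dm ν⁻¹) * (g : Matrix (Fin 2) (Fin 2) F) * (Dm ν * Dm ν⁻¹) := by
          simp only [mul_assoc]
      _ = (g : Matrix (Fin 2) (Fin 2) F) := by rw [Dm_mul, one_mul, mul_one]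
  map_mul' g h := by
    apply Subtype.ext
    rw [Matrix.SpecialLinearGroup.coe_mul, twFun_val, twFun_val, twFun_val,
      Matrix.SpecialLinearGroup.coe_mul]
    calc Dm ν * ((g : Matrix (Fin 2) (Fin 2) F) * (h : Matrix (Fin 2) (Fin 2) F)) * Dm ν⁻¹
        = Dm ν * (g : Matrix (Fin 2) (Fin 2) F) * 1 * (h : Matrix (Fin 2) (Fin 2) F) * Dm ν⁻¹ := by
          simp only [mul_assoc, one_mul]
      _ = Dm ν * (g : Matrix (Fin 2) (Fin 2) F) * Dm ν⁻¹ *
            (Dm ν * (h : Matrix (Fin 2) (Fin 2) F) * Dm ν⁻¹) := by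
          rw [← Dm_mul' ν]
          simp only [mul_assoc]

theorem tw_val (ν : Fˣ) (g : Matrix.SpecialLinearGroup (Fin 2) F) :
    ((tw ν g : Matrix.SpecialLinearGroup (Fin 2) F) : Matrix (Fin 2) (Fin 2) F) =
      Dm ν * (g : Matrix (Fin 2) (Fin 2) F) * Dm ν⁻¹ := rfl

theorem tw_00 (ν : Fˣ) (g : Matrix.SpecialLinearGroup (Fin 2) F) :
    ((tw ν g : Matrix.SpecialLinearGroup (Fin 2) F) : Matrix (Fin 2) (Fin 2) F) 0 0 =
      (g : Matrix (Fin 2) (Fin 2) F) 0 0 := by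
  rw [tw_val]
  have hν : (ν : F) ≠ 0 := ν.ne_zero
  simp [Dm, Matrix.mul_apply, Fin.sum_univ_two, Matrix.vecMul, dotProduct]
  field_simp

theorem tw_01 (ν : Fˣ) (g : Matrix.SpecialLinearGroup (Fin 2) F) :
    ((tw ν g : Matrix.SpecialLinearGroup (Fin 2) F) : Matrix (Fin 2) (Fin 2) F) 0 1 =
      (ν : F) * (g : Matrix (Fin 2) (Fin 2) F) 0 1 := by
  rw [tw_val]
  simp [Dm, Matrix.mul_apply, Fin.sum_univ_two, Matrix.vecMul, dotProduct]

theorem tw_10 (ν : Fˣ) (g : Matrix.SpecialLinearGroup (Fin 2) F) :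
    ((tw ν g : Matrix.SpecialLinearGroup (Fin 2) F) : Matrix (Fin 2) (Fin 2) F) 1 0 =
      (g : Matrix (Fin 2) (Fin 2) F) 1 0 * (ν : F)⁻¹ := by
  rw [tw_val]
  simp [Dm, Matrix.mul_apply, Fin.sum_univ_two, Matrix.vecMul, dotProduct]

theorem tw_11 (ν : Fˣ) (g : Matrix.SpecialLinearGroup (Fin 2) F) :
    ((tw ν g : Matrix.SpecialLinearGroup (Fin 2) F) : Matrix (Fin 2) (Fin 2) F) 1 1 =
      (g : Matrix (Fin 2) (Fin 2) F) 1 1 := by
  rw [tw_val]
  simp [Dm, Matrix.mul_apply, Fin.sum_univ_two, Matrix.vecMul, dotProduct]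

theorem tw_uSL (ν : Fˣ) (x : F) : tw ν (uSL x) = uSL ((ν : F) * x) := by
  apply Subtype.ext
  rw [tw_val]
  ext i j
  fin_cases i <;> fin_cases j <;> simp [Dm, uSL, Matrix.mul_apply, Fin.sum_univ_two]

/-- The conjugation `tw ν` is induced by conjugation with `dGL ν` in `GL_2`. -/
theorem toGL_tw (ν : Fˣ) (g : Matrix.SpecialLinearGroup (Fin 2) F) :
    Matrix.SpecialLinearGroup.toGL (tw ν g) =
      dGL ν * Matrix.SpecialLinearGroup.toGL g * (dGL ν)⁻¹ := by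
  rw [eq_mul_inv_iff_mul_eq]
  apply Units.ext
  show ((tw ν g : Matrix.SpecialLinearGroup (Fin 2) F) : Matrix (Fin 2) (Fin 2) F) * Dm ν =
    Dm ν * (g : Matrix (Fin 2) (Fin 2) F)
  rw [tw_val, mul_assoc, Dm_mul', mul_one]

section fin

variable [Fintype F] [DecidableEq F]

/-- The principal series functions are invariant under `tw ν`. -/
theorem slPS_tw (α : MulChar F ℂ) (ν : Fˣ) (g : Matrix.SpecialLinearGroup (Fin 2) F) :
    slPS α (tw ν g) = slPS α g := by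
  rw [slPS_apply, slPS_apply, tw_00, tw_01, tw_10, tw_11]
  have hν : (ν : F) ≠ 0 := ν.ne_zero
  congr 1
  · apply Fintype.sum_equiv (Equiv.mulLeft₀ (ν : F) hν)
    intro s
    simp only [Equiv.mulLeft₀_apply]
    have hiff : (g : Matrix (Fin 2) (Fin 2) F) 1 0 * (ν : F)⁻¹ +
        ((g : Matrix (Fin 2) (Fin 2) F) 1 1 - (g : Matrix (Fin 2) (Fin 2) F) 0 0) * s -
        (ν : F) * (g : Matrix (Fin 2) (Fin 2) F) 0 1 * s ^ 2 = 0 ↔
        (g : Matrix (Fin 2) (Fin 2) F) 1 0 +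
        ((g : Matrix (Fin 2) (Fin 2) F) 1 1 - (g : Matrix (Fin 2) (Fin 2) F) 0 0) * ((ν : F) * s) -
        (g : Matrix (Fin 2) (Fin 2) F) 0 1 * ((ν : F) * s) ^ 2 = 0 := by
      constructor
      · intro h
        have : (g : Matrix (Fin 2) (Fin 2) F) 1 0 +
          ((g : Matrix (Fin 2) (Fin 2) F) 1 1 - (g : Matrix (Fin 2) (Fin 2) F) 0 0) * ((ν : F) * s) -
          (g : Matrix (Fin 2) (Fin 2) F) 0 1 * ((ν : F) * s) ^ 2 = (ν : F) *
          ((g : Matrix (Fin 2) (Fin 2) F) 1 0 * (ν : F)⁻¹ +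
          ((g : Matrix (Fin 2) (Fin 2) F) 1 1 - (g : Matrix (Fin 2) (Fin 2) F) 0 0) * s -
          (ν : F) * (g : Matrix (Fin 2) (Fin 2) F) 0 1 * s ^ 2) := by
          field_simp
        rw [this, h, mul_zero]
      · intro h
        have : (g : Matrix (Fin 2) (Fin 2) F) 1 0 * (ν : F)⁻¹ +
          ((g : Matrix (Fin 2) (Fin 2) F) 1 1 - (g : Matrix (Fin 2) (Fin 2) F) 0 0) * s -
          (ν : F) * (g : Matrix (Fin 2) (Fin 2) F) 0 1 * s ^ 2 = (ν : F)⁻¹ *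
          ((g : Matrix (Fin 2) (Fin 2) F) 1 0 +
          ((g : Matrix (Fin 2) (Fin 2) F) 1 1 - (g : Matrix (Fin 2) (Fin 2) F) 0 0) * ((ν : F) * s) -
          (g : Matrix (Fin 2) (Fin 2) F) 0 1 * ((ν : F) * s) ^ 2) := by
          field_simp
        rw [this, h, mul_zero]
    have harg : (g : Matrix (Fin 2) (Fin 2) F) 0 0 + (ν : F) * (g : Matrix (Fin 2) (Fin 2) F) 0 1 * s =
        (g : Matrix (Fin 2) (Fin 2) F) 0 0 + (g : Matrix (Fin 2) (Fin 2) F) 0 1 * ((ν : F) * s) := by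
      ring
    rw [harg]
    by_cases h : (g : Matrix (Fin 2) (Fin 2) F) 1 0 +
        ((g : Matrix (Fin 2) (Fin 2) F) 1 1 - (g : Matrix (Fin 2) (Fin 2) F) 0 0) * ((ν : F) * s) -
        (g : Matrix (Fin 2) (Fin 2) F) 0 1 * ((ν : F) * s) ^ 2 = 0
    · rw [if_pos h, if_pos (hiff.mpr h)]
    · rw [if_neg h, if_neg (fun h' => h (hiff.mp h'))]
  · have hiff : (ν : F) * (g : Matrix (Fin 2) (Fin 2) F) 0 1 = 0 ↔
        (g : Matrix (Fin 2) (Fin 2) F) 0 1 = 0 := by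
      simp [hν]
    by_cases h : (g : Matrix (Fin 2) (Fin 2) F) 0 1 = 0
    · rw [if_pos h, if_pos (hiff.mpr h)]
    · rw [if_neg h, if_neg (fun h' => h (hiff.mp h'))]

/-- The unipotent multiplicities of a twisted function. -/
theorem mu_tw (ψ₀ : AddChar F ℂ) (χ : Matrix.SpecialLinearGroup (Fin 2) F → ℂ) (ν : Fˣ) (t : F) :
    mu uSL ψ₀ (fun g => χ (tw ν g)) t = mu uSL ψ₀ χ (t * (ν : F)⁻¹) := by
  rw [mu_def, mu_def]
  congr 1
  apply Fintype.sum_equiv (Equiv.mulLeft₀ (ν : F) ν.ne_zero)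
  intro x
  simp only [Equiv.mulLeft₀_apply, tw_uSL]
  congr 3
  have hν : (ν : F) ≠ 0 := ν.ne_zero
  field_simp

/-- Inner products are invariant under an automorphism. -/
theorem classInner_comp_equiv {G : Type*} [Group G] [Fintype G] (e : G ≃* G) (φ ψ : G → ℂ) :
    classInner (fun g => φ (e g)) (fun g => ψ (e g)) = classInner φ ψ := by
  unfold classInner
  congr 1
  exact Fintype.sum_equiv e.toEquiv _ _ (fun g => rfl)

/-- An element without eigenvectors has trace `t` with `t² ≠ 4` (odd characteristic). -/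
theorem trace_sq_ne_four (h2 : (2 : F) ≠ 0) (g : Matrix.SpecialLinearGroup (Fin 2) F)
    (hno : ∀ (c : F) (v : Fin 2 → F), v ≠ 0 → (g : Matrix (Fin 2) (Fin 2) F).mulVec v ≠ c • v) :
    ((g : Matrix (Fin 2) (Fin 2) F) 0 0 + (g : Matrix (Fin 2) (Fin 2) F) 1 1) ^ 2 - 4 ≠ 0 := by
  intro h
  have hdet : (g : Matrix (Fin 2) (Fin 2) F) 0 0 * (g : Matrix (Fin 2) (Fin 2) F) 1 1 -
      (g : Matrix (Fin 2) (Fin 2) F) 0 1 * (g : Matrix (Fin 2) (Fin 2) F) 1 0 = 1 := by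
    rw [← Matrix.det_fin_two]
    exact g.2
  have hb : (g : Matrix (Fin 2) (Fin 2) F) 0 1 ≠ 0 := by
    intro hb
    apply hno ((g : Matrix (Fin 2) (Fin 2) F) 1 1) ![0, 1]
    · intro h
      have := congrFun h 1
      simp at this
    · ext i
      fin_cases i <;> simp [Matrix.mulVec, dotProduct, Fin.sum_univ_two, hb]
  obtain ⟨e, he⟩ : ∃ e : F, e = ((g : Matrix (Fin 2) (Fin 2) F) 0 0 +
      (g : Matrix (Fin 2) (Fin 2) F) 1 1) / 2 := ⟨_, rfl⟩
  have h2e : 2 * e = (g : Matrix (Fin 2) (Fin 2) F) 0 0 + (g : Matrix (Fin 2) (Fin 2) F) 1 1 := by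
    rw [he]
    field_simp
  have he2 : e ^ 2 = 1 := by
    have h4 : (4 : F) ≠ 0 := by
      have : (4 : F) = 2 * 2 := by norm_num
      rw [this]
      exact mul_ne_zero h2 h2
    have : 4 * (e ^ 2 - 1) = 0 := by
      have : 4 * (e ^ 2 - 1) = (2 * e) ^ 2 - 4 := by ring
      rw [this, h2e]
      exact h
    rcases mul_eq_zero.mp this with h5 | h5
    · exact absurd h5 h4
    · exact sub_eq_zero.mp h5
  apply hno e ![(g : Matrix (Fin 2) (Fin 2) F) 0 1, e - (g : Matrix (Fin 2) (Fin 2) F) 0 0]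
  · intro h
    have := congrFun h 0
    simp at this
    exact hb this
  · ext i
    fin_cases i
    · simp [Matrix.mulVec, dotProduct, Fin.sum_univ_two]
      ring
    · simp [Matrix.mulVec, dotProduct, Fin.sum_univ_two]
      linear_combination (-1 : F) * hdet - e * h2e + he2

/-- In odd characteristic, an element without eigenvectors is conjugate in `SL_2` to its twist. -/
theorem isConj_tw (hodd : Odd (Fintype.card F)) (ν : Fˣ) (g : Matrix.SpecialLinearGroup (Fin 2) F)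
    (hno : ∀ (c : F) (v : Fin 2 → F), v ≠ 0 → (g : Matrix (Fin 2) (Fin 2) F).mulVec v ≠ c • v) :
    IsConj g (tw ν g) := by
  have hF : ringChar F ≠ 2 := by
    intro h
    have := FiniteField.even_card_iff_char_two.mp h
    rcases hodd with ⟨k, hk⟩
    omega
  have h2 : (2 : F) ≠ 0 := Ring.two_ne_zero hF
  have hodd' : Fintype.card F % 2 = 1 := Nat.odd_iff.mp hodd
  have htr := trace_sq_ne_four h2 g hno
  have hdet : (g : Matrix (Fin 2) (Fin 2) F) 0 0 * (g : Matrix (Fin 2) (Fin 2) F) 1 1 -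
      (g : Matrix (Fin 2) (Fin 2) F) 0 1 * (g : Matrix (Fin 2) (Fin 2) F) 1 0 = 1 := by
    rw [← Matrix.det_fin_two]
    exact g.2
  have hdet' : ((tw ν g : Matrix.SpecialLinearGroup (Fin 2) F) : Matrix (Fin 2) (Fin 2) F) 0 0 *
      ((tw ν g : Matrix.SpecialLinearGroup (Fin 2) F) : Matrix (Fin 2) (Fin 2) F) 1 1 -
      ((tw ν g : Matrix.SpecialLinearGroup (Fin 2) F) : Matrix (Fin 2) (Fin 2) F) 0 1 *
      ((tw ν g : Matrix.SpecialLinearGroup (Fin 2) F) : Matrix (Fin 2) (Fin 2) F) 1 0 = 1 := by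
    rw [← Matrix.det_fin_two]
    exact (tw ν g).2
  obtain ⟨x, y, hxy⟩ := Cfsg.Agent.S2325.exists_rep_one hodd' _ _ _ _ hdet htr
  have htr' : (((tw ν g : Matrix.SpecialLinearGroup (Fin 2) F) : Matrix (Fin 2) (Fin 2) F) 0 0 +
      ((tw ν g : Matrix.SpecialLinearGroup (Fin 2) F) : Matrix (Fin 2) (Fin 2) F) 1 1) ^ 2 - 4 ≠ 0 := by
    rw [tw_00, tw_11]
    exact htr
  obtain ⟨x', y', hxy'⟩ := Cfsg.Agent.S2325.exists_rep_one hodd' _ _ _ _ hdet' htr'
  have h1 := isConj_Mmat g x y 1 (by rw [hxy]; simp)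
  have h1' := isConj_Mmat (tw ν g) x' y' 1 (by rw [hxy']; simp)
  rw [tw_00, tw_11] at h1'
  exact h1.symm.trans h1'

end fin

end Cfsg.Agent.Lib.Helper39.SL2Twist
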