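-- Half-degree characters of SL_2 over a finite field of odd order.
import Mathlib
import Cfsg.Prelude.Def_Characters
import Cfsg.Prelude.Def_ParabolicCharacters
import Cfsg.Agent.Lib.Helper39.SL2Twist
import Cfsg.Agent.Lib.Helper39.SL2Odd

set_option autoImplicit false
set_option linter.unusedSectionVars false
set_option linter.unusedVariables false
set_option linter.style.haveILetI false

namespace Cfsg.Agent.Lib.Helper39.SL2Half

open Cfsg Matrix Cfsg.Agent.Lib.CT Cfsg.Agent.Lib.Helper39.Borel2 Cfsg.Agent.Lib.Helper39.UMult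
  Cfsg.Agent.Lib.Helper39.UBorel Cfsg.Agent.Lib.Helper39.UOrth Cfsg.Agent.Lib.Helper39.GL2Inst
  Cfsg.Agent.Lib.Helper39.PSInst Cfsg.Agent.Lib.CT.Wedderburn Cfsg.Agent.Lib.Helper39.GL2T1
  Cfsg.Agent.Lib.Helper39.MulCharOrth Cfsg.Agent.Lib.Helper39.Decomp Cfsg.Agent.Lib.Helper39.SL2T1
  Cfsg.Agent.Lib.Helper39.SL2PS Cfsg.Agent.Lib.Helper39.SL2Tri Cfsg.Agent.Lib.CT.FrobRec
  Cfsg.Agent.Lib.Helper39.SL2Conj Cfsg.Agent.Lib.Helper39.SL2Deg Cfsg.Agent.Lib.Helper39.SL2Odd
  Cfsg.Agent.Lib.Helper39.SL2Twist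
open scoped ComplexConjugate

variable {F : Type*} [Field F] [Fintype F] [DecidableEq F]

theorem ne_zero_of_not_isSquare {ν : F} (hν : ¬ IsSquare ν) : ν ≠ 0 := by
  rintro rfl
  exact hν ⟨0, by simp⟩

/-- The type `(a; b₊, b₋)` of an irreducible character of `SL_2(q)`, `q` odd. -/
theorem sl_type (hodd : Odd (Fintype.card F)) (ψ₀ : AddChar F ℂ) (hψ₀ : ψ₀.IsPrimitive)
    {ν : F} (hν : ¬ IsSquare ν) (χ : Matrix.SpecialLinearGroup (Fin 2) F → ℂ)
    (hχ : IsIrrCharacter (Matrix.SpecialLinearGroup (Fin 2) F) χ) :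
    ∃ a bp bm : ℕ, bp ≤ 1 ∧ bm ≤ 1 ∧
      (Fintype.card F : ℂ)⁻¹ * ∑ x : F, χ (uSL x) = a ∧
      mu uSL ψ₀ χ 1 = bp ∧ mu uSL ψ₀ χ ν = bm ∧
      χ 1 = ((a + (bp + bm) * ((Fintype.card F - 1) / 2) : ℕ) : ℂ) ∧
      χ (uSL 1) = (a : ℂ) - ((bp : ℂ) + bm) / 2 + ((bp : ℂ) - bm) / 2 * gaussSum (qc F) ψ₀ ∧
      (bp + bm = 0 → χ = fun _ => 1) ∧
      (bp + bm = 2 → ∀ t : F, t ≠ 0 → mu uSL ψ₀ χ t = 1) := by
  have hF := ringChar_ne_two_of_odd hodd
  obtain ⟨m, hm, hm1, hmsq, hdeg, hval, ha⟩ := sl_data ψ₀ hψ₀ χ hχ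
  have hν0 : ν ≠ 0 := ne_zero_of_not_isSquare hν
  refine ⟨m 0, m 1, m ν, hm1 1 one_ne_zero, hm1 ν hν0, ha, hm 1, hm ν, ?_, ?_, ?_, ?_⟩
  · rw [hdeg, sum_m hF hodd m hmsq hν]
  · rw [hval 1, sum_m_psi hF m hmsq hν ψ₀ hψ₀]
  · intro h0
    have h1 : m 1 = 0 := by omega
    have h2 : m ν = 0 := by omega
    have hall : ∀ t, t ≠ 0 → m t = 0 := by
      intro t ht
      have := m_eq hF m hmsq hν t ht
      rw [h1, h2] at this
      simp at this
      exact this
    apply sl_trivial_of_const χ hχ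
    intro x
    rw [hval x, hdeg]
    push_cast
    apply Finset.sum_congr rfl
    intro t _
    by_cases ht : t = 0
    · subst ht
      simp
    · rw [hall t ht]
      simp
  · intro h2 t ht
    have h1 : m 1 = 1 := by
      have := hm1 1 one_ne_zero
      have := hm1 ν hν0
      omega
    have h2 : m ν = 1 := by
      have := hm1 1 one_ne_zero
      have := hm1 ν hν0
      omega
    have := m_eq hF m hmsq hν t ht
    rw [h1, h2] at this
    rw [hm t, this]
    push_cast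
    ring


/-- The unipotent multiplicities of the trivial character. -/
theorem mu_trivial (ψ₀ : AddChar F ℂ) (hψ₀ : ψ₀.IsPrimitive) (t : F) (ht : t ≠ 0) :
    mu uSL ψ₀ (fun _ : Matrix.SpecialLinearGroup (Fin 2) F => (1 : ℂ)) t = 0 := by
  rw [mu_def]
  have h1 : ∀ x : F, (1 : ℂ) * conj (ψ₀ (t * x)) = ψ₀ ((-t) * x) := by
    intro x
    rw [one_mul, ← AddChar.map_neg_eq_conj, neg_mul]
  rw [Finset.sum_congr rfl (fun x _ => h1 x)]
  have h2 := AddChar.sum_mulShift (-t) hψ₀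
  simp_rw [mul_comm _ (-t)] at h2
  rw [h2, if_neg (neg_ne_zero.mpr ht)]
  simp

/-- A principal series function attached to a nontrivial character does not contain the trivial
character. -/
theorem trivial_not_constituent (α : MulChar F ℂ) (hα1 : α ≠ 1)
    (h : classInner (fun _ : Matrix.SpecialLinearGroup (Fin 2) F => (1 : ℂ)) (slPS α) ≠ 0) :
    False := by
  apply h
  rw [Clifford.classInner_conj_symm, slPS_inner_one, if_neg hα1]
  simp

/-- If two irreducible characters sum to the same function as two others, the first is one of the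
others. -/
theorem mem_of_decomp {G : Type*} [Group G] [Fintype G] {η χ χ' Ψ : G → ℂ}
    (hη : IsIrrCharacter G η) (hχ : IsIrrCharacter G χ) (hχ' : IsIrrCharacter G χ')
    (hdec : Ψ = χ + χ') (h : classInner η Ψ ≠ 0) : η = χ ∨ η = χ' := by
  by_contra hcon
  push Not at hcon
  apply h
  have h2 := irr_orthonormal (⟨η, hη⟩ : IrrCharacter G) ⟨χ, hχ⟩
  have h3 := irr_orthonormal (⟨η, hη⟩ : IrrCharacter G) ⟨χ', hχ'⟩
  simp only at h2 h3
  rw [if_neg (fun h => hcon.1 (congrArg Subtype.val h))] at h2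
  rw [if_neg (fun h => hcon.2 (congrArg Subtype.val h))] at h3
  rw [hdec, classInner_add_right, h2, h3, add_zero]

/-- The two constituents of the principal series function attached to a nontrivial character with
a decomposition into two irreducible characters: basic properties. -/
theorem half_props (hodd : Odd (Fintype.card F)) (ψ₀ : AddChar F ℂ) (hψ₀ : ψ₀.IsPrimitive)
    (ν : Fˣ) (hν : ¬ IsSquare (ν : F)) (α : MulChar F ℂ) (hα1 : α ≠ 1)
    (χ χ' : Matrix.SpecialLinearGroup (Fin 2) F → ℂ)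
    (hχ : IsIrrCharacter (Matrix.SpecialLinearGroup (Fin 2) F) χ)
    (hχ' : IsIrrCharacter (Matrix.SpecialLinearGroup (Fin 2) F) χ') (hne : χ' ≠ χ)
    (hdec : slPS α = χ + χ') :
    (Fintype.card F : ℂ)⁻¹ * ∑ x : F, χ (uSL x) = 1 ∧
    mu uSL ψ₀ χ 1 + mu uSL ψ₀ χ (ν : F) = 1 ∧
    χ 1 = (((Fintype.card F + 1) / 2 : ℕ) : ℂ) ∧
    χ' = (fun g => χ (tw ν g)) := by
  have hF := ringChar_ne_two_of_odd hodd
  obtain ⟨a, bp, bm, hbp, hbm, ha, hmu1, hmuν, hdeg, -, htriv, -⟩ := sl_type hodd ψ₀ hψ₀ hν χ hχ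
  obtain ⟨a', bp', bm', hbp', hbm', ha', hmu1', hmuν', hdeg', -, htriv', -⟩ :=
    sl_type hodd ψ₀ hψ₀ hν χ' hχ'
  have hν0 : (ν : F) ≠ 0 := ν.ne_zero
  obtain ⟨hin', hin⟩ := inner_of_decomp hχ hχ' hne hdec
  have ha1 : 1 ≤ a := a_pos_of_inner_ne_zero χ hχ α (by rw [hin]; exact one_ne_zero) a ha
  have ha1' : 1 ≤ a' := a_pos_of_inner_ne_zero χ' hχ' α (by rw [hin']; exact one_ne_zero) a' ha'
  have hmu0 := mu_slPS ψ₀ hψ₀ α 0
  rw [hdec, mu_add, mu_zero_eq, mu_zero_eq, ha, ha', if_pos rfl] at hmu0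
  have haa : a + a' = 2 := by exact_mod_cast hmu0
  have hm1 := mu_slPS ψ₀ hψ₀ α 1
  rw [hdec, mu_add, hmu1, hmu1', if_neg one_ne_zero] at hm1
  have hbb1 : bp + bp' = 1 := by exact_mod_cast hm1
  have hmν := mu_slPS ψ₀ hψ₀ α (ν : F)
  rw [hdec, mu_add, hmuν, hmuν', if_neg hν0] at hmν
  have hbbν : bm + bm' = 1 := by exact_mod_cast hmν
  have hb0 : bp + bm ≠ 0 := by
    intro h0
    have := htriv h0
    apply trivial_not_constituent α hα1
    rw [← this, hin]
    exact one_ne_zero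
  have hb0' : bp' + bm' ≠ 0 := by
    intro h0
    have := htriv' h0
    apply trivial_not_constituent α hα1
    rw [← this, hin']
    exact one_ne_zero
  have hb1 : bp + bm = 1 := by omega
  have ha1'' : a = 1 := by omega
  refine ⟨by rw [ha, ha1'']; simp, ?_, ?_, ?_⟩
  · rw [hmu1, hmuν]
    exact_mod_cast hb1
  · rw [hdeg, ha1'', hb1]
    congr 1
    rcases hodd with ⟨k, hk⟩
    omega
  · -- the twist of `χ` is the other constituent
    have hirr : IsIrrCharacter (Matrix.SpecialLinearGroup (Fin 2) F) (fun g => χ (tw ν g)) :=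
      Ops.isIrrCharacter_comp_mulEquiv (tw ν) hχ
    have hinner : classInner (fun g => χ (tw ν g)) (slPS α) = 1 := by
      have h1 : slPS α = fun g => slPS α (tw ν g) := by
        funext g
        rw [slPS_tw]
      rw [h1, classInner_comp_equiv (tw ν) χ (slPS α), hin]
    have hneχ : (fun g => χ (tw ν g)) ≠ χ := by
      intro h
      have h1 := mu_tw ψ₀ χ ν 1
      rw [h, hmu1] at h1
      have h2 : (1 : F) * (ν : F)⁻¹ = (ν : F) * ((ν : F)⁻¹) ^ 2 := by
        field_simp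
      rw [h2, sl_mu_scale ψ₀ χ (char_isClassFunction (isCharacter_of_irr hχ)) _ _
        (inv_ne_zero hν0), hmuν] at h1
      have : bp = bm := by exact_mod_cast h1
      omega
    rcases mem_of_decomp hirr hχ hχ' hdec (by rw [hinner]; exact one_ne_zero) with h | h
    · exact absurd h hneχ
    · exact h.symm

/-- A constituent of a principal series function attached to a nontrivial character of order two
vanishes at the elements without eigenvectors. -/
theorem half_elliptic (hodd : Odd (Fintype.card F)) (α : MulChar F ℂ) (hα1 : α ≠ 1)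
    (χ χ' : Matrix.SpecialLinearGroup (Fin 2) F → ℂ)
    (hχ : IsIrrCharacter (Matrix.SpecialLinearGroup (Fin 2) F) χ)
    (hχ' : IsIrrCharacter (Matrix.SpecialLinearGroup (Fin 2) F) χ') (hne : χ' ≠ χ)
    (hdec : slPS α = χ + χ') (g : Matrix.SpecialLinearGroup (Fin 2) F)
    (hno : ∀ (c : F) (v : Fin 2 → F), v ≠ 0 → (g : Matrix (Fin 2) (Fin 2) F).mulVec v ≠ c • v) :
    χ g = 0 := by
  have hF := ringChar_ne_two_of_odd hodd
  obtain ⟨ψ₀, hψ₀⟩ := exists_primitive (F := F)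
  obtain ⟨ν₀, hν₀⟩ := FiniteField.exists_nonsquare hF
  have hν0 : ν₀ ≠ 0 := ne_zero_of_not_isSquare hν₀
  obtain ⟨-, -, -, htw⟩ := half_props hodd ψ₀ hψ₀ (Units.mk0 ν₀ hν0) hν₀ α hα1 χ χ' hχ hχ' hne hdec
  have h0 := slPS_elliptic α g hno
  rw [hdec, Pi.add_apply, htw] at h0
  obtain ⟨c, hc⟩ := isConj_iff.mp (isConj_tw hodd (Units.mk0 ν₀ hν0) g hno)
  have hcl := char_isClassFunction (isCharacter_of_irr hχ) g c
  rw [hc] at hcl
  simp only at h0
  rw [hcl] at h0
  have : 2 * χ g = 0 := by linear_combination h0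
  rcases mul_eq_zero.mp this with h | h
  · exact absurd h two_ne_zero
  · exact h

/-- The principal series function attached to a character of order dividing two is the sum of two
different irreducible characters. -/
theorem exists_half (α : MulChar F ℂ) (hα : α ^ 2 = 1) :
    ∃ χ χ' : Matrix.SpecialLinearGroup (Fin 2) F → ℂ,
      IsIrrCharacter (Matrix.SpecialLinearGroup (Fin 2) F) χ ∧
      IsIrrCharacter (Matrix.SpecialLinearGroup (Fin 2) F) χ' ∧ χ' ≠ χ ∧ slPS α = χ + χ' := by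
  have hchar := isCharacter_slPS α
  have hne : slPS α ≠ 0 := by
    intro h
    have h1 := slPS_one α
    rw [h] at h1
    have : ((Fintype.card F + 1 : ℕ) : ℂ) = 0 := by
      push_cast
      exact h1.symm
    have h2 : Fintype.card F + 1 = 0 := by exact_mod_cast this
    omega
  obtain ⟨η, hη, hin⟩ := exists_constituent hchar hne
  have hinv : α = α⁻¹ := by
    rw [eq_inv_iff_mul_eq_one, ← sq]
    exact hα
  have hnorm : classInner (slPS α) (slPS α) = 2 := by
    rw [slPS_inner, if_pos rfl, if_pos hinv]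
    norm_num
  obtain ⟨χ', hχ', hne', hdec⟩ := norm_two_decomp hchar hη hnorm hin
  exact ⟨η, χ', hη, hχ', hne', hdec⟩

end Cfsg.Agent.Lib.Helper39.SL2Half
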