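import Mathlib
import Cfsg.Agent.Lib.Helper45.EPStmt
import Cfsg.Agent.Lib.Helper44.TPStmt

/-!
# S5988 / NDIVE (call by helper45)

`r ∣ #(elliptic m-spaces)` gives `AE`.  Assembly from `IPos`, `TPStmt.Top`, `TPStmt.FixND`,
`TPStmt.FxType`, `TPStmt.EltDim`, `DimObsA`, `FixCongE`, `UCardE`.
-/

set_option autoImplicit false

universe u

open scoped Matrix

namespace Cfsg.Agent.Lib.Helper39.EPNDIVE

open Cfsg.Agent.Lib.Helper45.EPStmt
open Cfsg.Agent.Lib.Helper94.OPStmt (P NP FxP NDegP StabP mem_FxP)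
open Cfsg.Agent.Lib.Helper37.HypStmt (cc IPos)

theorem omegaGL_le {ι : Type} [Fintype ι] [DecidableEq ι] {F : Type u} [Field F]
    (Q : (ι → F) → F) : Cfsg.Geo.omegaGL Q ≤ Cfsg.isometryGroup F Q := by
  intro x hx
  unfold Cfsg.Geo.omegaGL at hx
  obtain ⟨y, _, rfl⟩ := Subgroup.mem_map.mp hx
  exact y.2

theorem main (hIPos : IPos.{u}) (hTop : Cfsg.Agent.Lib.Helper44.TPStmt.Top.{u})
    (hFixND : Cfsg.Agent.Lib.Helper44.TPStmt.FixND.{u})
    (hFxType : Cfsg.Agent.Lib.Helper44.TPStmt.FxType.{u})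
    (hElt : Cfsg.Agent.Lib.Helper44.TPStmt.EltDim.{u})
    (hDim : DimObsA.{u}) (hFC : FixCongE.{u}) (hUC : UCardE.{u}) : NDivE.{u} := by
  intro F _ _ p _ _ d m hd hm2 hmeven hmd r _ hr2 hrp hdvd
  obtain ⟨i, hi⟩ : ∃ i, i = orderOf ((Fintype.card F : ℕ) : ZMod r) := ⟨_, rfl⟩
  obtain ⟨c, hc⟩ : ∃ c, c = cc i := ⟨_, rfl⟩
  have hipos : 0 < i := hi ▸ hIPos F p r hrp
  have hcpos : 0 < c := by
    rw [hc]; unfold cc; split_ifs <;> omega
  rw [← hi]
  have hfin : Module.finrank F ↥(⊤ : Submodule F (P d → F)) = 2 * d := by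
    rw [finrank_top, Module.finrank_fintype_fun_eq_card]
    simp [P]
    ring
  have hc2d : c ≤ 2 * d := by
    by_contra h
    push Not at h
    have hnd : NDegP d F ⊤ := (hTop F d).1
    have h1 := hUC F p d m hm2 hmeven r hr2 hrp ⊤ hnd (by rw [hfin]; omega)
      (by rw [hfin, ← hi, ← hc]; exact h)
    apply h1
    have hcard : Nat.card {W : Submodule F (P d → F) // MemE d F m W ∧ W ≤ ⊤} =
        Nat.card {W : Submodule F (P d → F) // MemE d F m W} :=
      Nat.card_congr (Equiv.subtypeEquivRight (fun W => by simp))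
    rw [hcard]
    exact hdvd
  unfold AE
  rw [← hc]
  refine ⟨hc2d, ?_⟩
  by_contra hcon
  push Not at hcon
  obtain ⟨hmc, hkm, hkm2⟩ := hcon
  have hb1 : 1 ≤ (2 * d) / c := Nat.div_pos hc2d hcpos
  have hble : (2 * d) / c * c ≤ 2 * d := Nat.div_mul_le_self _ _
  have hdm := Nat.div_add_mod (2 * d) c
  have hcomm : c * ((2 * d) / c) = (2 * d) / c * c := Nat.mul_comm _ _
  have hkdef : 2 * d - (2 * d) / c * c = (2 * d) % c := by omega
  obtain ⟨x, hxO, hxr, hxfix0⟩ := hElt F p d (by omega) r hr2 hrp ((2 * d) / c) hb1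
    (by rw [← hi, ← hc]; exact hble)
    (by rw [← hi, ← hc]; intro h; exfalso; omega)
  rw [← hi, ← hc, hkdef] at hxfix0
  have hxfix : Module.finrank F ↥(FxP (x : Matrix (P d) (P d) F)) = (2 * d) % c := hxfix0
  have hxI := omegaGL_le _ hxO
  have hcong := hFC F d m r x hxI hxr
  have hUnd : NDegP d F (FxP (x : Matrix (P d) (P d) F)) := hFixND F p d r hrp x hxI hxr
  have hcard : Nat.card {W : Submodule F (P d → F) //
        MemE d F m W ∧ W ≤ FxP (x : Matrix (P d) (P d) F)} =
      Nat.card {W : Submodule F (P d → F) //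
        MemE d F m W ∧ StabP (x : Matrix (P d) (P d) F) W} := by
    apply Nat.card_congr
    apply Equiv.subtypeEquivRight
    intro W
    constructor
    · rintro ⟨hM, hle⟩
      refine ⟨hM, ?_⟩
      intro v hv
      obtain ⟨w, hw, rfl⟩ := Submodule.mem_map.mp hv
      have h2 := (mem_FxP _ w).mp (hle hw)
      rw [Matrix.toLin'_apply, h2]
      exact hw
    · rintro ⟨hM, hst⟩
      refine ⟨hM, ?_⟩
      have hd1 := hDim F p d r hr2 hrp x hxI hxr W hst hM.2.1
      rw [← hi, ← hc, hM.1] at hd1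
      have hle : Module.finrank F ↥(W ⊓ FxP (x : Matrix (P d) (P d) F)) ≤ m := by
        rw [← hM.1]
        exact Submodule.finrank_mono inf_le_left
      have h0 : m - Module.finrank F ↥(W ⊓ FxP (x : Matrix (P d) (P d) F)) = 0 := by
        by_contra hne
        have h3 := Nat.le_of_dvd (Nat.pos_of_ne_zero hne) hd1
        omega
      have heq : W ⊓ FxP (x : Matrix (P d) (P d) F) = W := by
        apply Submodule.eq_of_le_of_finrank_le inf_le_left
        rw [hM.1]
        omega
      rw [← heq]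
      exact inf_le_right
  rcases hkm.lt_or_eq with hlt | heq
  · have h1 := hUC F p d m hm2 hmeven r hr2 hrp (FxP (x : Matrix (P d) (P d) F)) hUnd
      (by rw [hxfix]; exact hlt) (by rw [hxfix, ← hi, ← hc]; exact Nat.mod_lt _ hcpos)
    apply h1
    rw [hcard]
    exact (Nat.ModEq.dvd_iff hcong (dvd_refl r)).mp hdvd
  · obtain ⟨hieven, hodd⟩ := hkm2 heq.symm
    have hci : c = i := by
      rw [hc]; unfold cc; rw [if_pos hieven]
    have hFxE : MemE d F m (FxP (x : Matrix (P d) (P d) F)) := by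
      refine ⟨by rw [hxfix]; exact heq.symm, hUnd, ?_⟩
      intro hplus
      have h3 := (hFxType F p d r hr2 hrp x hxI hxr).mp hplus
      rw [← hi] at h3
      rcases h3 with h3 | h3
      · exact (Nat.not_even_iff_odd.mpr h3) hieven
      · have h3' : Even ((2 * d - Module.finrank F ↥(FxP (x : Matrix (P d) (P d) F))) / i) := h3
        rw [hxfix] at h3'
        have h5 : 2 * d - (2 * d) % c = c * ((2 * d) / c) := by omega
        have h4 : (2 * d - (2 * d) % c) / i = (2 * d) / c := by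
          rw [← hci, h5, Nat.mul_div_cancel_left _ hcpos]
        rw [h4] at h3'
        exact (Nat.not_even_iff_odd.mpr hodd) h3'
    have hone : Nat.card {W : Submodule F (P d → F) //
        MemE d F m W ∧ W ≤ FxP (x : Matrix (P d) (P d) F)} = 1 := by
      have key : ∀ W : {W : Submodule F (P d → F) //
          MemE d F m W ∧ W ≤ FxP (x : Matrix (P d) (P d) F)},
          W.1 = FxP (x : Matrix (P d) (P d) F) := by
        intro W
        apply Submodule.eq_of_le_of_finrank_le W.2.2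
        rw [W.2.1.1, hxfix, heq]
      rw [Nat.card_eq_one_iff_unique]
      exact ⟨⟨fun a b => Subtype.ext ((key a).trans (key b).symm)⟩, ⟨⟨_, hFxE, le_refl _⟩⟩⟩
    rw [hcard] at hone
    rw [hone] at hcong
    have h6 := (Nat.ModEq.dvd_iff hcong (dvd_refl r)).mp hdvd
    have hr1 : r = 1 := Nat.dvd_one.mp h6
    exact (Fact.out : r.Prime).one_lt.ne' hr1

end Cfsg.Agent.Lib.Helper39.EPNDIVE
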