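-- Principal series of GL_2 over a finite field: characters, Jacquet sums, vanishing on elliptic elements.
import Mathlib
import Cfsg.Prelude.Def_Characters
import Cfsg.Prelude.Def_ParabolicCharacters
import Cfsg.Agent.Lib.Helper39.GL2T1
import Cfsg.Agent.Lib.Helper39.MulCharOrth
import Cfsg.Agent.Lib.Helper39.Decomp
import Cfsg.Agent.Lib.CT.IndChar

set_option autoImplicit false
set_option linter.unusedSectionVars false
set_option linter.unusedVariables false
set_option linter.style.haveILetI false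

namespace Cfsg.Agent.Lib.Helper39.GL2PS

open Cfsg Matrix Cfsg.Agent.Lib.CT Cfsg.Agent.Lib.Helper39.Borel2 Cfsg.Agent.Lib.Helper39.UMult
  Cfsg.Agent.Lib.Helper39.UBorel Cfsg.Agent.Lib.Helper39.UOrth Cfsg.Agent.Lib.Helper39.GL2Inst
  Cfsg.Agent.Lib.Helper39.PSInst Cfsg.Agent.Lib.CT.Wedderburn Cfsg.Agent.Lib.Helper39.GL2T1
  Cfsg.Agent.Lib.Helper39.MulCharOrth Cfsg.Agent.Lib.Helper39.Decomp
open scoped ComplexConjugate

variable {F : Type*} [Field F]

/-- The function `b ↦ α(b₁₁) β(b₂₂)` on the Borel subgroup of `GL_2`, as a monoid hom to `ℂ`. -/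
noncomputable def glDiagHom (α β : MulChar F ℂ) : upperTriangularGL 2 F →* ℂ where
  toFun b := α (((b : Matrix.GeneralLinearGroup (Fin 2) F) : Matrix (Fin 2) (Fin 2) F) 0 0) *
    β (((b : Matrix.GeneralLinearGroup (Fin 2) F) : Matrix (Fin 2) (Fin 2) F) 1 1)
  map_one' := by simp
  map_mul' b b' := by
    have hb := (mem_B_iff (b : Matrix.GeneralLinearGroup (Fin 2) F)).mp b.2
    have hb1 : ((b : Matrix.GeneralLinearGroup (Fin 2) F) : Matrix (Fin 2) (Fin 2) F) 1 0 = 0 := hb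
    have hb' := (mem_B_iff (b' : Matrix.GeneralLinearGroup (Fin 2) F)).mp b'.2
    have hb1' : ((b' : Matrix.GeneralLinearGroup (Fin 2) F) : Matrix (Fin 2) (Fin 2) F) 1 0 = 0 :=
      hb'
    have e0 : (((b * b' : upperTriangularGL 2 F) : Matrix.GeneralLinearGroup (Fin 2) F) :
        Matrix (Fin 2) (Fin 2) F) 0 0 =
        ((b : Matrix.GeneralLinearGroup (Fin 2) F) : Matrix (Fin 2) (Fin 2) F) 0 0 *
        ((b' : Matrix.GeneralLinearGroup (Fin 2) F) : Matrix (Fin 2) (Fin 2) F) 0 0 := by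
      simp [Matrix.mul_apply, Fin.sum_univ_two, hb1']
    have e1 : (((b * b' : upperTriangularGL 2 F) : Matrix.GeneralLinearGroup (Fin 2) F) :
        Matrix (Fin 2) (Fin 2) F) 1 1 =
        ((b : Matrix.GeneralLinearGroup (Fin 2) F) : Matrix (Fin 2) (Fin 2) F) 1 1 *
        ((b' : Matrix.GeneralLinearGroup (Fin 2) F) : Matrix (Fin 2) (Fin 2) F) 1 1 := by
      simp [Matrix.mul_apply, Fin.sum_univ_two, hb1]
    rw [e0, e1, map_mul, map_mul]
    ring

theorem isCharacter_gl_diag (α β : MulChar F ℂ) :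
    IsCharacter (upperTriangularGL 2 F)
      (fun b => α (((b : Matrix.GeneralLinearGroup (Fin 2) F) : Matrix (Fin 2) (Fin 2) F) 0 0) *
        β (((b : Matrix.GeneralLinearGroup (Fin 2) F) : Matrix (Fin 2) (Fin 2) F) 1 1)) :=
  LinChar.isCharacter_of_hom (glDiagHom α β).toHomUnits

/-- The principal series function of `GL_2` attached to a pair of multiplicative characters. -/
noncomputable def glPS [Fintype F] [DecidableEq F] (l : MulChar F ℂ × MulChar F ℂ) :
    Matrix.GeneralLinearGroup (Fin 2) F → ℂ :=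
  indFun (upperTriangularGL 2 F)
    (fun b => l.1 (((b : Matrix.GeneralLinearGroup (Fin 2) F) : Matrix (Fin 2) (Fin 2) F) 0 0) *
      l.2 (((b : Matrix.GeneralLinearGroup (Fin 2) F) : Matrix (Fin 2) (Fin 2) F) 1 1))

section fin

variable [Fintype F] [DecidableEq F]

theorem isCharacter_glPS (l : MulChar F ℂ × MulChar F ℂ) :
    IsCharacter (Matrix.GeneralLinearGroup (Fin 2) F) (glPS l) :=
  IndChar.isCharacter_indFun _ _ (isCharacter_gl_diag l.1 l.2)

theorem glPS_one (l : MulChar F ℂ × MulChar F ℂ) :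
    glPS l 1 = (Fintype.card F : ℂ) + 1 := by
  unfold glPS
  rw [gl_indFun (fun x y => l.1 x * l.2 y) 1]
  simp

/-- The principal series functions vanish at the elements without eigenvectors. -/
theorem glPS_elliptic (l : MulChar F ℂ × MulChar F ℂ) (g : Matrix.GeneralLinearGroup (Fin 2) F)
    (hno : ∀ (c : F) (v : Fin 2 → F), v ≠ 0 → (g : Matrix (Fin 2) (Fin 2) F).mulVec v ≠ c • v) :
    glPS l g = 0 := by
  unfold glPS
  rw [gl_indFun (fun x y => l.1 x * l.2 y) g]
  have hb : (g : Matrix (Fin 2) (Fin 2) F) 0 1 ≠ 0 := by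
    intro hb
    apply hno ((g : Matrix (Fin 2) (Fin 2) F) 1 1) ![0, 1]
    · intro h
      have := congrFun h 1
      simp at this
    · ext i
      fin_cases i <;> simp [Matrix.mulVec, dotProduct, Fin.sum_univ_two, hb]
  rw [if_neg hb, add_zero]
  apply Finset.sum_eq_zero
  intro s _
  rw [if_neg]
  intro hs
  apply hno ((g : Matrix (Fin 2) (Fin 2) F) 0 0 + (g : Matrix (Fin 2) (Fin 2) F) 0 1 * s) ![1, s]
  · intro h
    have := congrFun h 0
    simp at this
  · ext i
    fin_cases i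
    · simp [Matrix.mulVec, dotProduct, Fin.sum_univ_two]
    · simp [Matrix.mulVec, dotProduct, Fin.sum_univ_two]
      linear_combination hs

theorem gl_horth [Fintype (MulChar F ℂ)] (t t' : Fˣ × Fˣ) :
    ∑ l : MulChar F ℂ × MulChar F ℂ, (l.1 (t.1 : F) * l.2 (t.2 : F)) *
        conj (l.1 (t'.1 : F) * l.2 (t'.2 : F)) =
      if t = t' then (Fintype.card (Fˣ × Fˣ) : ℂ) else 0 := by
  have h1 : ∀ l : MulChar F ℂ × MulChar F ℂ, (l.1 (t.1 : F) * l.2 (t.2 : F)) *
      conj (l.1 (t'.1 : F) * l.2 (t'.2 : F)) =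
      (l.1 (t.1 : F) * conj (l.1 (t'.1 : F))) * (l.2 (t.2 : F) * conj (l.2 (t'.2 : F))) := by
    intro l
    rw [map_mul]
    ring
  simp_rw [h1]
  rw [Fintype.sum_prod_type]
  simp_rw [← Finset.mul_sum, ← Finset.sum_mul]
  rw [sum_mulChar_mul_conj, sum_mulChar_mul_conj]
  by_cases h1 : t.1 = t'.1
  · by_cases h2 : t.2 = t'.2
    · rw [if_pos h1, if_pos h2, if_pos (Prod.ext h1 h2), Fintype.card_prod]
      push_cast
      ring
    · rw [if_neg h2, if_neg (fun h => h2 (congrArg Prod.snd h)), mul_zero]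
  · rw [if_neg h1, if_neg (fun h => h1 (congrArg Prod.fst h)), zero_mul]

/-- The Jacquet sum formula for `GL_2`. -/
theorem gl_jacquet [Fintype (MulChar F ℂ)] (χ : Matrix.GeneralLinearGroup (Fin 2) F → ℂ)
    (hχ : IsClassFunction _ χ) (t : Fˣ × Fˣ) :
    ∑ l : MulChar F ℂ × MulChar F ℂ, (l.1 (t.1 : F) * l.2 (t.2 : F)) * classInner χ (glPS l) =
      (Fintype.card F : ℂ)⁻¹ *
        ∑ x : F, χ (bmGL (t, x) : Matrix.GeneralLinearGroup (Fin 2) F) :=
  jacquet (mGL F) (upperTriangularGL 2 F) mem_B_iff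
    (fun t : Fˣ × Fˣ => (t.1 : F)) (fun t : Fˣ × Fˣ => (t.2 : F)) bmGL bmGL_bijective mGL_bmGL
    (fun (l : MulChar F ℂ × MulChar F ℂ) (x y : F) => l.1 x * l.2 y) gl_horth χ hχ t

theorem bmGL_one (x : F) :
    (bmGL ((1, 1), x) : Matrix.GeneralLinearGroup (Fin 2) F) = uGL x := by
  apply mGL_injective
  rw [mGL_bmGL, mGL_u]
  simp

/-- The multiplicities of an irreducible character in the principal series add up to the
dimension of its unipotent invariants. -/
theorem gl_jacquet_one [Fintype (MulChar F ℂ)] (χ : Matrix.GeneralLinearGroup (Fin 2) F → ℂ)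
    (hχ : IsClassFunction _ χ) :
    ∑ l : MulChar F ℂ × MulChar F ℂ, classInner χ (glPS l) =
      (Fintype.card F : ℂ)⁻¹ * ∑ x : F, χ (uGL x) := by
  have h := gl_jacquet χ hχ (1, 1)
  simp only [Units.val_one, map_one, one_mul, bmGL_one] at h
  exact h

/-- The value of a class function at a diagonal element with distinct entries. -/
theorem gl_jacquet_diag [Fintype (MulChar F ℂ)] (χ : Matrix.GeneralLinearGroup (Fin 2) F → ℂ)
    (hχ : IsClassFunction _ χ) (t : Fˣ × Fˣ) (ht : (t.1 : F) ≠ t.2) :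
    ∑ l : MulChar F ℂ × MulChar F ℂ, (l.1 (t.1 : F) * l.2 (t.2 : F)) * classInner χ (glPS l) =
      χ (bmGL (t, 0) : Matrix.GeneralLinearGroup (Fin 2) F) := by
  rw [gl_jacquet χ hχ t]
  have h1 : ∀ x : F, χ (bmGL (t, x) : Matrix.GeneralLinearGroup (Fin 2) F) =
      χ (bmGL (t, 0) : Matrix.GeneralLinearGroup (Fin 2) F) := fun x =>
    classFunction_diag (mGL F) mGL_injective (upperTriangularGL 2 F) uGL mGL_u
      (fun t : Fˣ × Fˣ => (t.1 : F)) (fun t : Fˣ × Fˣ => (t.2 : F)) bmGL mGL_bmGL χ hχ t x ht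
  simp_rw [h1]
  simp only [Finset.sum_const, Finset.card_univ, nsmul_eq_mul]
  have hq : (Fintype.card F : ℂ) ≠ 0 := card_ne_zero
  field_simp

/-- A diagonal element of `GL_2` in coordinates. -/
theorem eq_bmGL_of_diag (g : Matrix.GeneralLinearGroup (Fin 2) F)
    (h01 : (g : Matrix (Fin 2) (Fin 2) F) 0 1 = 0) (h10 : (g : Matrix (Fin 2) (Fin 2) F) 1 0 = 0) :
    ∃ t : Fˣ × Fˣ, (t.1 : F) = (g : Matrix (Fin 2) (Fin 2) F) 0 0 ∧
      (t.2 : F) = (g : Matrix (Fin 2) (Fin 2) F) 1 1 ∧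
      g = (bmGL (t, 0) : Matrix.GeneralLinearGroup (Fin 2) F) := by
  have hdet : ((g : Matrix.GeneralLinearGroup (Fin 2) F) : Matrix (Fin 2) (Fin 2) F).det ≠ 0 :=
    Borel2.det_m_ne_zero (mGL F) g
  rw [Matrix.det_fin_two, h10, mul_zero, sub_zero] at hdet
  refine ⟨(Units.mk0 _ (left_ne_zero_of_mul hdet), Units.mk0 _ (right_ne_zero_of_mul hdet)),
    rfl, rfl, ?_⟩
  apply mGL_injective
  rw [mGL_bmGL]
  ext i j
  fin_cases i <;> fin_cases j
  · rfl
  · exact h01
  · exact h10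
  · rfl

end fin

end Cfsg.Agent.Lib.Helper39.GL2PS
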