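import Mathlib
import Cfsg.Agent.Lib.Helper40.HPStmt
import Cfsg.Agent.Lib.Helper44.TPStmt
import Cfsg.Agent.Lib.Helper44.NegPairs
import Cfsg.Agent.Lib.Helper21.TPSUBPERP
import Cfsg.Agent.Lib.Helper48.TPORTHSUM
import Cfsg.Agent.Lib.Helper11.TPCANCEL
import Cfsg.Agent.Lib.Helper47.TPTOP

/-!
# S5974 / C2FIX (call by helper40; helper39, third seat)

Characteristic 2: every isometry `x` of the plus form with `x * x = 1` fixes a hyperbolic
`m`-space if `d` is odd or `4 ∣ m`.

Strong induction on `finrank Y` for invariant nondegenerate plus-type subspaces `Y` of the standard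
space: for even `m ≤ finrank Y` with `finrank Y % 4 = 2`, or `m % 4 = 0`, or `x = id` on `Y`, there
is an invariant hyperbolic `m`-space inside `Y`.  One peels an invariant nondegenerate plus-type
`H ≤ Y` (a plane `⟨s, w⟩` with `Q s = 0`, `B(s, w) ≠ 0`, or an orthogonal sum of two such planes)
and passes to the perp of `H` in `Y` (`TPStmt.SubPerp`, `Cancel`, `OrthSum`).
-/

set_option autoImplicit false

universe u

open scoped Matrix

namespace Cfsg.Agent.Lib.Helper39.HPC2FIX

open Cfsg.Agent.Lib.Helper44.TPStmt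
open Cfsg.Agent.Lib.Helper44.NegPairs (plusQ)

variable {F : Type u} [Field F] {d : ℕ}

local notation "β" => QuadraticMap.polar (Cfsg.quadFormPlus d F)
local notation "q" => Cfsg.quadFormPlus d F

theorem pol_add_left (a b c : J d → F) : β (a + b) c = β a c + β b c :=
  QuadraticMap.polar_add_left (plusQ d F) a b c

theorem pol_add_right (a b c : J d → F) : β a (b + c) = β a b + β a c :=
  QuadraticMap.polar_add_right (plusQ d F) a b c

theorem pol_smul_left (k : F) (a b : J d → F) : β (k • a) b = k * β a b :=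
  QuadraticMap.polar_smul_left (plusQ d F) k a b

theorem pol_smul_right (k : F) (a b : J d → F) : β a (k • b) = k * β a b :=
  QuadraticMap.polar_smul_right (plusQ d F) k a b

theorem pol_comm (a b : J d → F) : β a b = β b a :=
  QuadraticMap.polar_comm _ a b

theorem pol_zero_left (b : J d → F) : β (0 : J d → F) b = 0 :=
  QuadraticMap.polar_zero_left (plusQ d F) b

theorem q_zero : q (0 : J d → F) = 0 :=
  QuadraticMap.map_zero (plusQ d F)

theorem q_add (a b : J d → F) : q (a + b) = q a + q b + β a b := by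
  unfold QuadraticMap.polar
  ring

theorem q_smul (k : F) (a : J d → F) : q (k • a) = k * k * q a :=
  QuadraticMap.map_smul (plusQ d F) k a

theorem pol_self [CharP F 2] (a : J d → F) : β a a = 0 := by
  have h : a + a = 0 := by
    funext i
    exact CharTwo.add_self_eq_zero (a i)
  have h2 := CharTwo.add_self_eq_zero (q a)
  unfold QuadraticMap.polar
  rw [h, q_zero]
  linear_combination -h2

theorem gpol (g : (J d → F) →ₗ[F] (J d → F)) (hgi : ∀ v, q (g v) = q v) (a b : J d → F) :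
    β (g a) (g b) = β a b := by
  unfold QuadraticMap.polar
  rw [← map_add, hgi, hgi, hgi]

theorem gpol_swap (g : (J d → F) →ₗ[F] (J d → F)) (hgi : ∀ v, q (g v) = q v)
    (hgg : ∀ v, g (g v) = v) (a b : J d → F) : β (g a) b = β a (g b) := by
  have h := gpol g hgi a (g b)
  rw [hgg] at h
  exact h

theorem phi_add [CharP F 2] (g : (J d → F) →ₗ[F] (J d → F)) (hgi : ∀ v, q (g v) = q v)
    (hgg : ∀ v, g (g v) = v) (a b : J d → F) :
    β (a + b) (g (a + b)) = β a (g a) + β b (g b) := by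
  have h1 : β b (g a) = β a (g b) := (pol_comm b (g a)).trans (gpol_swap g hgi hgg a b)
  have h2 : (2 : F) = 0 := CharTwo.two_eq_zero
  rw [map_add, pol_add_left, pol_add_right, pol_add_right]
  linear_combination h1 + (β a (g b)) * h2

theorem phi_smul (g : (J d → F) →ₗ[F] (J d → F)) (k : F) (a : J d → F) :
    β (k • a) (g (k • a)) = k * k * β a (g a) := by
  rw [map_smul, pol_smul_left, pol_smul_right]
  ring

theorem iso_half (Y U : Submodule F (J d → F)) (hY : NDeg d F Y) (hUY : U ≤ Y)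
    (hU : ∀ a ∈ U, ∀ b ∈ U, β a b = 0) : 2 * Module.finrank F ↥U ≤ Module.finrank F ↥Y := by
  classical
  obtain ⟨BY, hBY⟩ : ∃ BY : LinearMap.BilinForm F ↥Y,
      BY = LinearMap.BilinForm.restrict (QuadraticMap.polarBilin (plusQ d F)) Y := ⟨_, rfl⟩
  have hBYa : ∀ a b : ↥Y, BY a b = β (a : J d → F) (b : J d → F) := by
    intro a b
    rw [hBY]
    rfl
  have hnd : BY.Nondegenerate := by
    refine ⟨?_, ?_⟩
    · intro a ha
      by_contra ha0
      have ha0' : (a : J d → F) ≠ 0 := fun h => ha0 (Subtype.ext h)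
      obtain ⟨-, ⟨y, hy, hay⟩⟩ := hY (a : J d → F) a.2 ha0'
      apply hay
      have := ha ⟨y, hy⟩
      rw [hBYa] at this
      exact this
    · intro a ha
      by_contra ha0
      have ha0' : (a : J d → F) ≠ 0 := fun h => ha0 (Subtype.ext h)
      obtain ⟨⟨y, hy, hay⟩, -⟩ := hY (a : J d → F) a.2 ha0'
      apply hay
      have := ha ⟨y, hy⟩
      rw [hBYa] at this
      exact this
  obtain ⟨U', hU'⟩ : ∃ U' : Submodule F ↥Y, U' = U.comap Y.subtype := ⟨_, rfl⟩
  have hfr : Module.finrank F ↥U' = Module.finrank F ↥U := by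
    rw [hU']
    exact (Submodule.comapSubtypeEquivOfLe hUY).finrank_eq
  have hle : U' ≤ BY.orthogonal U' := by
    intro a ha b hb
    show BY b a = 0
    rw [hBYa]
    rw [hU'] at ha hb
    exact hU _ hb _ ha
  have h1 : Module.finrank F ↥(BY.orthogonal U') = Module.finrank F ↥Y - Module.finrank F ↥U' :=
    LinearMap.BilinForm.finrank_orthogonal hnd U'
  have h2 : Module.finrank F ↥U' ≤ Module.finrank F ↥(BY.orthogonal U') :=
    Submodule.finrank_mono hle
  have h3 : Module.finrank F ↥U' ≤ Module.finrank F ↥Y := Submodule.finrank_le U'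
  omega

theorem plane (s w : J d → F) (hs : q s = 0) (hb : β s w ≠ 0) :
    NDeg d F (Submodule.span F {s, w}) ∧ Plus d F (Submodule.span F {s, w}) ∧
      Module.finrank F ↥(Submodule.span F {s, w}) = 2 := by
  have hss : β s s = 0 := by
    have h : s + s = (2 : F) • s := (two_smul F s).symm
    unfold QuadraticMap.polar
    rw [h, q_smul, hs]
    ring
  have hs0 : s ≠ 0 := by
    rintro rfl
    exact hb (pol_zero_left w)
  have hnd : ∀ h ∈ Submodule.span F {s, w}, h ≠ 0 →
      ∃ y ∈ Submodule.span F {s, w}, β h y ≠ 0 := by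
    intro h hh h0
    obtain ⟨a, c, rfl⟩ := Submodule.mem_span_pair.mp hh
    by_cases hc : c = 0
    · subst hc
      have ha : a ≠ 0 := by
        rintro rfl
        apply h0
        simp
      refine ⟨w, Submodule.subset_span (by simp), ?_⟩
      rw [pol_add_left, pol_smul_left, pol_smul_left, zero_mul, add_zero]
      exact mul_ne_zero ha hb
    · refine ⟨s, Submodule.subset_span (by simp), ?_⟩
      rw [pol_add_left, pol_smul_left, pol_smul_left, hss, mul_zero, zero_add]
      exact mul_ne_zero hc (by rw [pol_comm]; exact hb)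
  have hli : LinearIndependent F ![s, w] := by
    rw [LinearIndependent.pair_iff]
    intro a c hac
    have h1 : β (a • s + c • w) s = 0 := by
      rw [hac]
      exact pol_zero_left s
    rw [pol_add_left, pol_smul_left, pol_smul_left, hss, mul_zero, zero_add] at h1
    have hc : c = 0 := by
      rcases mul_eq_zero.mp h1 with h | h
      · exact h
      · exact absurd ((pol_comm s w).trans h) hb
    have h2 : β (a • s + c • w) w = 0 := by
      rw [hac]
      exact pol_zero_left w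
    rw [hc, zero_smul, add_zero, pol_smul_left] at h2
    have ha : a = 0 := by
      rcases mul_eq_zero.mp h2 with h | h
      · exact h
      · exact absurd h hb
    exact ⟨ha, hc⟩
  have hfin : Module.finrank F ↥(Submodule.span F {s, w}) = 2 := by
    have h := finrank_span_eq_card hli
    have hr : Set.range ![s, w] = {s, w} := by
      simp [Matrix.range_cons]
      exact Set.pair_comm w s
    rw [hr] at h
    rw [h]
    simp
  refine ⟨?_, ?_, hfin⟩
  · intro h hh h0
    obtain ⟨y, hy, hne⟩ := hnd h hh h0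
    exact ⟨⟨y, hy, by rw [pol_comm]; exact hne⟩, ⟨y, hy, hne⟩⟩
  · refine ⟨Submodule.span F {s}, Submodule.span_mono (by simp), ?_, ?_⟩
    · intro z hz
      obtain ⟨k, rfl⟩ := Submodule.mem_span_singleton.mp hz
      rw [q_smul, hs, mul_zero]
    · rw [finrank_span_singleton hs0, hfin]

theorem plus_sup (A B : Submodule F (J d → F)) (hinf : A ⊓ B = ⊥)
    (hfin : Module.finrank F ↥(A ⊔ B) = Module.finrank F ↥A + Module.finrank F ↥B)
    (horth : ∀ a ∈ A, ∀ b ∈ B, β a b = 0) (hA : Plus d F A) (hB : Plus d F B) :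
    Plus d F (A ⊔ B) := by
  obtain ⟨UA, hUA, hUAts, hUAd⟩ := hA
  obtain ⟨UB, hUB, hUBts, hUBd⟩ := hB
  refine ⟨UA ⊔ UB, sup_le_sup hUA hUB, ?_, ?_⟩
  · intro z hz
    obtain ⟨a, ha, b, hb, rfl⟩ := Submodule.mem_sup.mp hz
    rw [q_add, hUAts a ha, hUBts b hb, horth a (hUA ha) b (hUB hb)]
    ring
  · have h := Submodule.finrank_sup_add_finrank_inf_eq UA UB
    have h0 : UA ⊓ UB = ⊥ := by
      rw [eq_bot_iff, ← hinf]
      exact inf_le_inf hUA hUB
    rw [h0, finrank_bot, add_zero] at h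
    rw [h, hfin]
    omega

theorem stab_iff (M : Matrix (J d) (J d) F) (W : Submodule F (J d → F)) :
    Stab M W ↔ ∀ w ∈ W, Matrix.toLin' M w ∈ W := by
  unfold Stab
  rw [Submodule.map_le_iff_le_comap]
  rfl

theorem map_mem_of_span_pair (g : (J d → F) →ₗ[F] (J d → F)) (H : Submodule F (J d → F))
    (a b : J d → F) (ha : g a ∈ H) (hb : g b ∈ H) :
    ∀ w ∈ Submodule.span F {a, b}, g w ∈ H := by
  intro w hw
  obtain ⟨k, l, rfl⟩ := Submodule.mem_span_pair.mp hw
  rw [map_add, map_smul, map_smul]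
  exact H.add_mem (H.smul_mem k ha) (H.smul_mem l hb)

theorem orth_span_pair (a b c e : J d → F) (h1 : β a c = 0) (h2 : β a e = 0) (h3 : β b c = 0)
    (h4 : β b e = 0) :
    ∀ p ∈ Submodule.span F {a, b}, ∀ r ∈ Submodule.span F {c, e}, β p r = 0 := by
  intro p hp r hr
  obtain ⟨k, l, rfl⟩ := Submodule.mem_span_pair.mp hp
  obtain ⟨k', l', rfl⟩ := Submodule.mem_span_pair.mp hr
  simp only [pol_add_left, pol_add_right, pol_smul_left, pol_smul_right, h1, h2, h3, h4,
    mul_zero, add_zero]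

theorem ndeg_bot : NDeg d F (⊥ : Submodule F (J d → F)) := by
  intro w hw hw0
  exact absurd ((Submodule.mem_bot F).mp hw) hw0

theorem plus_bot : Plus d F (⊥ : Submodule F (J d → F)) :=
  ⟨⊥, le_refl _, fun w hw => by rw [(Submodule.mem_bot F).mp hw]; exact q_zero, by simp⟩

theorem stab_bot (M : Matrix (J d) (J d) F) : Stab M (⊥ : Submodule F (J d → F)) := by
  unfold Stab
  rw [Submodule.map_bot]

theorem exists_sing [CharP F 2] (g : (J d → F) →ₗ[F] (J d → F))
    (hgi : ∀ v, q (g v) = q v) (hgg : ∀ v, g (g v) = v)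
    (Y : Submodule F (J d → F)) (hYnd : NDeg d F Y) (hYp : Plus d F Y)
    (u₀ : J d → F) (hu₀ : u₀ ∈ Y) (hφ : β u₀ (g u₀) ≠ 0) :
    ∃ u ∈ Y, q u = 0 ∧ β u (g u) ≠ 0 := by
  obtain ⟨T, hTY, hTts, hTd⟩ := hYp
  have h2F : (2 : F) = 0 := CharTwo.two_eq_zero
  by_cases h1 : ∃ t ∈ T, β t (g t) ≠ 0
  · obtain ⟨t, ht, hne⟩ := h1
    exact ⟨t, hTY ht, hTts t ht, hne⟩
  push Not at h1
  by_cases h2 : ∃ t ∈ T, β u₀ t ≠ 0
  · obtain ⟨t, ht, hne⟩ := h2
    refine ⟨u₀ + (q u₀ / β u₀ t) • t, Y.add_mem hu₀ (Y.smul_mem _ (hTY ht)), ?_, ?_⟩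
    · rw [q_add, q_smul, hTts t ht, pol_smul_right, div_mul_cancel₀ _ hne]
      linear_combination (q u₀) * h2F
    · rw [phi_add g hgi hgg, phi_smul g, h1 t ht, mul_zero, add_zero]
      exact hφ
  push Not at h2
  exfalso
  have hu₀T : u₀ ∉ T := fun h => hφ (h1 u₀ h)
  have hiso : ∀ a ∈ T ⊔ Submodule.span F {u₀}, ∀ b ∈ T ⊔ Submodule.span F {u₀}, β a b = 0 := by
    intro a ha b hb
    obtain ⟨t, ht, s, hs, rfl⟩ := Submodule.mem_sup.mp ha
    obtain ⟨t', ht', s', hs', rfl⟩ := Submodule.mem_sup.mp hb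
    obtain ⟨k, rfl⟩ := Submodule.mem_span_singleton.mp hs
    obtain ⟨k', rfl⟩ := Submodule.mem_span_singleton.mp hs'
    have htt : β t t' = 0 := by
      unfold QuadraticMap.polar
      rw [hTts _ (T.add_mem ht ht'), hTts t ht, hTts t' ht']
      ring
    have e1 : β t u₀ = 0 := (pol_comm t u₀).trans (h2 t ht)
    have e2 : β u₀ t' = 0 := h2 t' ht'
    have e3 : β u₀ u₀ = 0 := pol_self u₀
    simp only [pol_add_left, pol_add_right, pol_smul_left, pol_smul_right, htt, e1, e2, e3,
      mul_zero, add_zero]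
  have hlt : T < T ⊔ Submodule.span F {u₀} := by
    refine lt_of_le_of_ne le_sup_left ?_
    intro heq
    apply hu₀T
    rw [heq]
    exact Submodule.mem_sup_right (Submodule.mem_span_singleton_self u₀)
  have h3 := Submodule.finrank_lt_finrank_of_lt hlt
  have h4 := iso_half Y _ hYnd
    (sup_le hTY (by rw [Submodule.span_singleton_le_iff_mem]; exact hu₀)) hiso
  omega

theorem block4 [Fintype F] [CharP F 2] (hOrth : OrthSum.{u}) (g : (J d → F) →ₗ[F] (J d → F))
    (hgi : ∀ v, q (g v) = q v) (hgg : ∀ v, g (g v) = v)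
    (Y : Submodule F (J d → F)) (hYs : ∀ y ∈ Y, g y ∈ Y) (hYnd : NDeg d F Y)
    (hB : ∀ y ∈ Y, β y (g y) = 0) (u : J d → F) (hu : u ∈ Y) (hgu : g u ≠ u) :
    ∃ H : Submodule F (J d → F), H ≤ Y ∧ (∀ h ∈ H, g h ∈ H) ∧ NDeg d F H ∧ Plus d F H ∧
      Module.finrank F ↥H = 4 := by
  have h2 : (2 : F) = 0 := CharTwo.two_eq_zero
  have hdouble : ∀ z : J d → F, z + z = 0 := by
    intro z
    funext i
    exact CharTwo.add_self_eq_zero (z i)
  obtain ⟨n, hn⟩ : ∃ n, n = g u + u := ⟨_, rfl⟩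
  have hnY : n ∈ Y := by
    rw [hn]
    exact Y.add_mem (hYs u hu) hu
  have hgu' : g u = n + u := by
    rw [hn, add_assoc, hdouble, add_zero]
  have hn0 : n ≠ 0 := by
    intro h0
    apply hgu
    rw [hgu', h0, zero_add]
  obtain ⟨-, v, hvY, hb⟩ := hYnd n hnY hn0
  obtain ⟨n', hn'⟩ : ∃ n', n' = g v + v := ⟨_, rfl⟩
  have hn'Y : n' ∈ Y := by
    rw [hn']
    exact Y.add_mem (hYs v hvY) hvY
  have hgv' : g v = n' + v := by
    rw [hn', add_assoc, hdouble, add_zero]
  obtain ⟨u₂, hu₂⟩ : ∃ u₂, u₂ = u + (β u v / β n v) • n := ⟨_, rfl⟩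
  have hu₂Y : u₂ ∈ Y := by
    rw [hu₂]
    exact Y.add_mem hu (Y.smul_mem _ hnY)
  have quad : ∀ y ∈ Y, q (g y + y) = 0 := by
    intro y hy
    rw [q_add, hgi, pol_comm, hB y hy]
    linear_combination (q y) * h2
  have hqn : q n = 0 := by
    rw [hn]
    exact quad u hu
  have hqn' : q n' = 0 := by
    rw [hn']
    exact quad v hvY
  have hgn : g n = n := by
    rw [hn, map_add, hgg, add_comm]
  have hgn' : g n' = n' := by
    rw [hn', map_add, hgg, add_comm]
  have hgu₂ : g u₂ = u₂ + n := by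
    rw [hu₂, map_add, map_smul, hgn, hgu']
    abel
  -- values of the polar form
  have e1 := gpol g hgi u v
  have e2 := gpol_swap g hgi hgg u v
  have e3 : β u (g u) = 0 := hB u hu
  have e4 : β v (g v) = 0 := hB v hvY
  have e5 : β u u = 0 := pol_self u
  have e6 : β v v = 0 := pol_self v
  have e7 : β v u = β u v := pol_comm v u
  have e8 : β (g u) u = β u (g u) := pol_comm (g u) u
  have e9 : β (g v) u = β u (g v) := pol_comm (g v) u
  have e10 : β v (g u) = β (g u) v := pol_comm v (g u)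
  have hnv : β n v = β (g u) v + β u v := by
    rw [hn, pol_add_left]
  have hnn' : β n n' = 0 := by
    rw [hn, hn']
    simp only [pol_add_left, pol_add_right]
    linear_combination e1 + e2 + (β u v + β u (g v)) * h2
  have hnn : β n n = 0 := pol_self n
  have hnu : β n u = 0 := by
    rw [hn, pol_add_left]
    linear_combination e8 + e3 + e5
  have hnu₂ : β n u₂ = 0 := by
    rw [hu₂, pol_add_right, pol_smul_right, hnu, hnn]
    ring
  have hvn' : β v n' = 0 := by
    rw [hn', pol_add_right]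
    linear_combination e4 + e6
  have hvn : β v n = β n v := pol_comm v n
  have hvu₂ : β v u₂ = 0 := by
    rw [hu₂, pol_add_right, pol_smul_right, hvn, div_mul_cancel₀ _ hb]
    linear_combination e7 + (β u v) * h2
  have hn'u : β n' u = β n v := by
    rw [hn', pol_add_left, hnv]
    linear_combination e9 - e2 + e7
  have hn'n : β n' n = 0 := (pol_comm n' n).trans hnn'
  have hn'u₂ : β n' u₂ = β n v := by
    rw [hu₂, pol_add_right, pol_smul_right, hn'u, hn'n]
    ring
  obtain ⟨p1nd, p1p, p1f⟩ := plane n v hqn hb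
  obtain ⟨p2nd, p2p, p2f⟩ := plane n' u₂ hqn' (by rw [hn'u₂]; exact hb)
  have horth := orth_span_pair n v n' u₂ hnn' hnu₂ hvn' hvu₂
  obtain ⟨o1, o2, o3⟩ := hOrth F d _ _ p1nd p2nd horth
  have hnH : n ∈ Submodule.span F {n, v} ⊔ Submodule.span F {n', u₂} :=
    Submodule.mem_sup_left (Submodule.subset_span (by simp))
  have hvH : v ∈ Submodule.span F {n, v} ⊔ Submodule.span F {n', u₂} :=
    Submodule.mem_sup_left (Submodule.subset_span (by simp))
  have hn'H : n' ∈ Submodule.span F {n, v} ⊔ Submodule.span F {n', u₂} :=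
    Submodule.mem_sup_right (Submodule.subset_span (by simp))
  have hu₂H : u₂ ∈ Submodule.span F {n, v} ⊔ Submodule.span F {n', u₂} :=
    Submodule.mem_sup_right (Submodule.subset_span (by simp))
  refine ⟨Submodule.span F {n, v} ⊔ Submodule.span F {n', u₂}, ?_, ?_, o1,
    plus_sup _ _ o2 o3 horth p1p p2p, by rw [o3, p1f, p2f]⟩
  · apply sup_le
    · rw [Submodule.span_le]
      intro z hz
      rcases hz with rfl | rfl
      · exact hnY
      · exact hvY
    · rw [Submodule.span_le]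
      intro z hz
      rcases hz with rfl | rfl
      · exact hn'Y
      · exact hu₂Y
  · intro h hh
    obtain ⟨p1, hp1, p2, hp2, rfl⟩ := Submodule.mem_sup.mp hh
    rw [map_add]
    apply Submodule.add_mem
    · apply map_mem_of_span_pair g _ n v _ _ p1 hp1
      · rw [hgn]; exact hnH
      · rw [hgv']; exact Submodule.add_mem _ hn'H hvH
    · apply map_mem_of_span_pair g _ n' u₂ _ _ p2 hp2
      · rw [hgn']; exact hn'H
      · rw [hgu₂]; exact Submodule.add_mem _ hu₂H hnH

theorem peel [Fintype F] (hSub : SubPerp.{u}) (hOrth : OrthSum.{u}) (hCan : Cancel.{u})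
    (x : Matrix.GeneralLinearGroup (J d) F)
    (hx : x ∈ Cfsg.isometryGroup F (Cfsg.quadFormPlus d F))
    (Y H : Submodule F (J d → F)) (hYs : Stab (x : Matrix (J d) (J d) F) Y) (hYnd : NDeg d F Y)
    (hYp : Plus d F Y) (hHY : H ≤ Y) (hHs : Stab (x : Matrix (J d) (J d) F) H)
    (hHnd : NDeg d F H) (hHp : Plus d F H) :
    ∃ Y' : Submodule F (J d → F), Y' ≤ Y ∧ Stab (x : Matrix (J d) (J d) F) Y' ∧ NDeg d F Y' ∧
      Plus d F Y' ∧ Module.finrank F ↥H + Module.finrank F ↥Y' = Module.finrank F ↥Y ∧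
      (∀ h ∈ H, ∀ y ∈ Y', β h y = 0) := by
  obtain ⟨Y', hY'Y, hY'nd, hinf, horth, hfin, hstab⟩ := hSub F d Y H hYnd hHnd hHY
  have hO := hOrth F d H Y' hHnd hY'nd horth
  have hsup : H ⊔ Y' = Y := by
    apply Submodule.eq_of_le_of_finrank_le (sup_le hHY hY'Y)
    rw [hO.2.2, hfin]
  refine ⟨Y', hY'Y, hstab x hx hYs hHs, hY'nd, ?_, hfin, horth⟩
  exact hCan F d H Y' hHnd hY'nd horth (by rw [hsup]; exact hYp) hHp

theorem join [Fintype F] (hOrth : OrthSum.{u}) (M : Matrix (J d) (J d) F)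
    (H W' : Submodule F (J d → F)) (hHs : Stab M H) (hHnd : NDeg d F H) (hHp : Plus d F H)
    (hW's : Stab M W') (hW'nd : NDeg d F W') (hW'p : Plus d F W')
    (horth : ∀ h ∈ H, ∀ w ∈ W', β h w = 0) :
    Module.finrank F ↥(H ⊔ W') = Module.finrank F ↥H + Module.finrank F ↥W' ∧
      NDeg d F (H ⊔ W') ∧ Plus d F (H ⊔ W') ∧ Stab M (H ⊔ W') := by
  obtain ⟨h1, h2, h3⟩ := hOrth F d H W' hHnd hW'nd horth
  refine ⟨h3, h1, plus_sup H W' h2 h3 horth hHp hW'p, ?_⟩
  unfold Stab at hHs hW's ⊢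
  rw [Submodule.map_sup]
  exact sup_le_sup hHs hW's

theorem core [Fintype F] [CharP F 2] (hSub : SubPerp.{u}) (hOrth : OrthSum.{u})
    (hCan : Cancel.{u}) (x : Matrix.GeneralLinearGroup (J d) F)
    (hx : x ∈ Cfsg.isometryGroup F (Cfsg.quadFormPlus d F))
    (hxx : (x : Matrix (J d) (J d) F) * (x : Matrix (J d) (J d) F) = 1) :
    ∀ n : ℕ, ∀ Y : Submodule F (J d → F), Module.finrank F ↥Y = n →
      Stab (x : Matrix (J d) (J d) F) Y → NDeg d F Y → Plus d F Y →
      ∀ m : ℕ, Even m → m ≤ n →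
      (n % 4 = 2 ∨ m % 4 = 0 ∨
        ∀ y ∈ Y, Matrix.toLin' (x : Matrix (J d) (J d) F) y = y) →
      ∃ W : Submodule F (J d → F), W ≤ Y ∧ Module.finrank F ↥W = m ∧ NDeg d F W ∧
        Plus d F W ∧ Stab (x : Matrix (J d) (J d) F) W := by
  obtain ⟨g, hg⟩ : ∃ g : (J d → F) →ₗ[F] (J d → F),
      g = Matrix.toLin' (x : Matrix (J d) (J d) F) := ⟨_, rfl⟩
  have hgi : ∀ v, q (g v) = q v := by
    intro v
    rw [hg, Matrix.toLin'_apply]
    exact hx v v
  have hgg : ∀ v, g (g v) = v := by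
    intro v
    rw [hg, Matrix.toLin'_apply, Matrix.toLin'_apply, Matrix.mulVec_mulVec, hxx,
      Matrix.one_mulVec]
  intro n
  induction n using Nat.strong_induction_on with
  | _ n ih =>
    intro Y hYn hYs hYnd hYp m hm hmn hcond
    obtain ⟨a, ha⟩ := hm
    obtain ⟨tn, htn⟩ : ∃ t, n = 2 * t := by
      obtain ⟨T, -, -, hT⟩ := hYp
      exact ⟨_, by rw [← hYn, hT]⟩
    rcases Nat.eq_zero_or_pos m with hm0 | hmpos
    · exact ⟨⊥, bot_le, by rw [finrank_bot]; exact hm0.symm, ndeg_bot, plus_bot, stab_bot _⟩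
    rcases hmn.eq_or_lt with hmeq | hmlt
    · exact ⟨Y, le_refl _, by omega, hYnd, hYp, hYs⟩
    have hYs' : ∀ y ∈ Y, g y ∈ Y := by
      rw [hg]
      exact (stab_iff _ Y).mp hYs
    by_cases hA : ∃ u ∈ Y, β u (g u) ≠ 0
    · obtain ⟨u₀, hu₀, hφ⟩ := hA
      obtain ⟨u, huY, hqu, hφu⟩ := exists_sing g hgi hgg Y hYnd hYp u₀ hu₀ hφ
      obtain ⟨hHnd, hHp, hH2⟩ := plane u (g u) hqu hφu
      have hHY : Submodule.span F {u, g u} ≤ Y := by
        rw [Submodule.span_le]
        intro z hz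
        rcases hz with rfl | rfl
        · exact huY
        · exact hYs' _ huY
      have hHs : Stab (x : Matrix (J d) (J d) F) (Submodule.span F {u, g u}) := by
        rw [stab_iff, ← hg]
        apply map_mem_of_span_pair g _ u (g u)
        · exact Submodule.subset_span (by simp)
        · rw [hgg]
          exact Submodule.subset_span (by simp)
      obtain ⟨Y', hY'Y, hY's, hY'nd, hY'p, hY'n, hHY'⟩ :=
        peel hSub hOrth hCan x hx Y _ hYs hYnd hYp hHY hHs hHnd hHp
      have hY'fin : Module.finrank F ↥Y' = n - 2 := by omega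
      by_cases h4 : m % 4 = 0
      · obtain ⟨W, hWY', hWm, hWnd, hWp, hWs⟩ := ih (n - 2) (by omega) Y' hY'fin hY's hY'nd
          hY'p m ⟨a, ha⟩ (by omega) (Or.inr (Or.inl h4))
        exact ⟨W, hWY'.trans hY'Y, hWm, hWnd, hWp, hWs⟩
      · obtain ⟨W', hW'Y', hW'm, hW'nd, hW'p, hW's⟩ := ih (n - 2) (by omega) Y' hY'fin hY's
          hY'nd hY'p (m - 2) ⟨a - 1, by omega⟩ (by omega) (Or.inr (Or.inl (by omega)))
        obtain ⟨j1, j2, j3, j4⟩ := join hOrth (x : Matrix (J d) (J d) F) _ W' hHs hHnd hHp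
          hW's hW'nd hW'p (fun h hh w hw => hHY' h hh w (hW'Y' hw))
        exact ⟨_, sup_le hHY (hW'Y'.trans hY'Y), by rw [j1, hH2, hW'm]; omega, j2, j3, j4⟩
    · push Not at hA
      by_cases hC : ∀ y ∈ Y, g y = y
      · obtain ⟨T, hTY, hTts, hTd⟩ := hYp
        have hTpos : 0 < Module.finrank F ↥T := by omega
        obtain ⟨⟨t, htT⟩, ht0⟩ := Module.finrank_pos_iff_exists_ne_zero.mp hTpos
        have ht0' : t ≠ 0 := fun h => ht0 (Subtype.ext h)
        obtain ⟨-, v, hvY, hb⟩ := hYnd t (hTY htT) ht0'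
        obtain ⟨hHnd, hHp, hH2⟩ := plane t v (hTts t htT) hb
        have hHY : Submodule.span F {t, v} ≤ Y := by
          rw [Submodule.span_le]
          intro z hz
          rcases hz with rfl | rfl
          · exact hTY htT
          · exact hvY
        have hHs : Stab (x : Matrix (J d) (J d) F) (Submodule.span F {t, v}) := by
          rw [stab_iff, ← hg]
          apply map_mem_of_span_pair g _ t v
          · rw [hC t (hTY htT)]
            exact Submodule.subset_span (by simp)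
          · rw [hC v hvY]
            exact Submodule.subset_span (by simp)
        obtain ⟨Y', hY'Y, hY's, hY'nd, hY'p, hY'n, hHY'⟩ :=
          peel hSub hOrth hCan x hx Y _ hYs hYnd ⟨T, hTY, hTts, hTd⟩ hHY hHs hHnd hHp
        have hY'fin : Module.finrank F ↥Y' = n - 2 := by omega
        obtain ⟨W', hW'Y', hW'm, hW'nd, hW'p, hW's⟩ := ih (n - 2) (by omega) Y' hY'fin hY's
          hY'nd hY'p (m - 2) ⟨a - 1, by omega⟩ (by omega)
          (Or.inr (Or.inr (fun y hy => by rw [← hg]; exact hC y (hY'Y hy))))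
        obtain ⟨j1, j2, j3, j4⟩ := join hOrth (x : Matrix (J d) (J d) F) _ W' hHs hHnd hHp
          hW's hW'nd hW'p (fun h hh w hw => hHY' h hh w (hW'Y' hw))
        exact ⟨_, sup_le hHY (hW'Y'.trans hY'Y), by rw [j1, hH2, hW'm]; omega, j2, j3, j4⟩
      · push Not at hC
        obtain ⟨u, huY, hgu⟩ := hC
        have hcond' : n % 4 = 2 ∨ m % 4 = 0 := by
          rcases hcond with h | h | h
          · exact Or.inl h
          · exact Or.inr h
          · exact absurd (by rw [hg]; exact h u huY) hgu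
        obtain ⟨H, hHY, hHs', hHnd, hHp, hH4⟩ :=
          block4 hOrth g hgi hgg Y hYs' hYnd hA u huY hgu
        have hHs : Stab (x : Matrix (J d) (J d) F) H := by
          rw [stab_iff, ← hg]
          exact hHs'
        obtain ⟨Y', hY'Y, hY's, hY'nd, hY'p, hY'n, hHY'⟩ :=
          peel hSub hOrth hCan x hx Y H hYs hYnd hYp hHY hHs hHnd hHp
        have hY'fin : Module.finrank F ↥Y' = n - 4 := by omega
        by_cases hm4 : 4 ≤ m
        · obtain ⟨W', hW'Y', hW'm, hW'nd, hW'p, hW's⟩ := ih (n - 4) (by omega) Y' hY'fin hY's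
            hY'nd hY'p (m - 4) ⟨a - 2, by omega⟩ (by omega)
            (by
              rcases hcond' with h | h
              · exact Or.inl (by omega)
              · exact Or.inr (Or.inl (by omega)))
          obtain ⟨j1, j2, j3, j4⟩ := join hOrth (x : Matrix (J d) (J d) F) H W' hHs hHnd hHp
            hW's hW'nd hW'p (fun h hh w hw => hHY' h hh w (hW'Y' hw))
          exact ⟨_, sup_le hHY (hW'Y'.trans hY'Y), by rw [j1, hH4, hW'm]; omega, j2, j3, j4⟩
        · have hn42 : n % 4 = 2 := by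
            rcases hcond' with h | h
            · exact h
            · omega
          obtain ⟨W, hWY', hWm, hWnd, hWp, hWs⟩ := ih (n - 4) (by omega) Y' hY'fin hY's hY'nd
            hY'p m ⟨a, ha⟩ (by omega) (Or.inl (by omega))
          exact ⟨W, hWY'.trans hY'Y, hWm, hWnd, hWp, hWs⟩

theorem main_of (hTop : Top.{u}) (hSub : SubPerp.{u}) (hOrth : OrthSum.{u}) (hCan : Cancel.{u}) :
    Cfsg.Agent.Lib.Helper40.HPStmt.C2Fix.{u} := by
  intro F _ _ _ d m hd hm hme hmd hcond x hx hxx
  have hfin : Module.finrank F ↥(⊤ : Submodule F (J d → F)) = 2 * d := by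
    rw [finrank_top, Module.finrank_fintype_fun_eq_card]
    simp
    ring
  obtain ⟨W, -, hWm, hWnd, hWp, hWs⟩ := core hSub hOrth hCan x hx hxx (2 * d) ⊤ hfin
    (by unfold Stab; exact le_top) (hTop F d).1 (hTop F d).2 m hme (by omega)
    (by
      rcases hcond with ⟨k, hk⟩ | h
      · exact Or.inl (by omega)
      · exact Or.inr (Or.inl h))
  exact ⟨W, (Cfsg.Agent.Lib.Helper40.HPStmt.hypJ_iff d m W).mpr ⟨hWm, hWnd, hWp⟩, hWs⟩

theorem main : Cfsg.Agent.Lib.Helper40.HPStmt.C2Fix.{u} :=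
  main_of Cfsg.Agent.Lib.Helper47.TPTOP.main Cfsg.Agent.Lib.Helper21.TPSUBPERP.main
    Cfsg.Agent.Lib.Helper48.TPORTHSUM.main Cfsg.Agent.Lib.Helper11.TPCANCEL.main

end Cfsg.Agent.Lib.Helper39.HPC2FIX
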