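-- Elements of PSU_3(q) of orders q+1, p(q+1)/d and (q^2-1)/d (d = gcd(3, q+1)).
import Mathlib
import Cfsg.Prelude.Def_Classical
import Cfsg.Agent.Lib.Helper39.PSU3Conj

set_option autoImplicit false

namespace Cfsg.Agent.Lib.Helper39.PSU3Elts

open Matrix
open Cfsg.Agent.Lib.Helper40.HermAdj Cfsg.Agent.Lib.Helper39.PSU3Conj

/-- number theory: `E ∣ k m` and `E ∣ 3 m` iff `E / gcd(3,k) ∣ m` -/
theorem nt (E k m : ℕ) (hd : Nat.gcd 3 k ∣ E) :
    (E ∣ k * m ∧ E ∣ 3 * m) ↔ E / Nat.gcd 3 k ∣ m := by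
  have hdpos : 0 < Nat.gcd 3 k := Nat.gcd_pos_of_pos_left k (by norm_num)
  obtain ⟨E', hE'⟩ := hd
  have hdiv : E / Nat.gcd 3 k = E' := by
    rw [hE', Nat.mul_div_cancel_left _ hdpos]
  rw [hdiv]
  constructor
  · rintro ⟨h1, h2⟩
    have h3 : E ∣ Nat.gcd (3 * m) (k * m) := Nat.dvd_gcd h2 h1
    rw [Nat.gcd_mul_right, hE'] at h3
    exact Nat.dvd_of_mul_dvd_mul_left hdpos h3
  · rintro ⟨j, rfl⟩
    obtain ⟨f, hf⟩ := Nat.gcd_dvd_right 3 k
    obtain ⟨e, he⟩ := Nat.gcd_dvd_left 3 k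
    constructor
    · refine ⟨f * j, ?_⟩
      rw [hE']
      nth_rewrite 1 [hf]
      ring
    · refine ⟨e * j, ?_⟩
      rw [hE']
      nth_rewrite 1 [he]
      ring

variable {F : Type*} [Field F]

/-- scalar powers of a diagonal matrix -/
theorem diag_scal (d : Fin 3 → F) (m : ℕ) :
    (∃ c : F, (Matrix.diagonal d) ^ m = c • (1 : Matrix (Fin 3) (Fin 3) F)) ↔
      d 0 ^ m = d 1 ^ m ∧ d 1 ^ m = d 2 ^ m := by
  rw [Matrix.diagonal_pow]
  constructor
  · rintro ⟨c, hc⟩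
    have h0 := congrFun (congrFun hc 0) 0
    have h1 := congrFun (congrFun hc 1) 1
    have h2 := congrFun (congrFun hc 2) 2
    simp at h0 h1 h2
    rw [h0, h1, h2]
    exact ⟨rfl, rfl⟩
  · rintro ⟨h0, h1⟩
    refine ⟨d 0 ^ m, ?_⟩
    ext i j
    fin_cases i <;> fin_cases j <;> simp [h0, h1]

theorem diag_preserves (φ : F →+* F) (d : Fin 3 → F) (G : Matrix (Fin 3) (Fin 3) F)
    (h : ∀ i j, φ (d i) * G i j * d j = G i j) :
    adj φ (Matrix.diagonal d) * G * Matrix.diagonal d = G := by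
  have h1 : adj φ (Matrix.diagonal d) = Matrix.diagonal (fun i => φ (d i)) := by
    ext i j
    rw [adj_apply, Matrix.diagonal_apply, Matrix.diagonal_apply]
    by_cases hij : i = j
    · subst hij
      simp
    · rw [if_neg hij, if_neg (Ne.symm hij), map_zero]
  rw [h1]
  ext i j
  rw [Matrix.mul_diagonal, Matrix.diagonal_mul]
  exact h i j

section fin

variable [Fintype F] {q : ℕ}

theorem q_ge (hF : Fintype.card F = q ^ 2) : 2 ≤ q := by
  by_contra h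
  have h1 : q ≤ 1 := by omega
  have h2 : q ^ 2 ≤ 1 := by nlinarith
  have h3 : 1 < Fintype.card F := Fintype.one_lt_card
  omega

theorem exists_gen (hF : Fintype.card F = q ^ 2) : ∃ y : F, y ≠ 0 ∧ orderOf y = q ^ 2 - 1 := by
  classical
  obtain ⟨g, hg⟩ := IsCyclic.exists_ofOrder_eq_natCard (α := Fˣ)
  refine ⟨(g : F), g.ne_zero, ?_⟩
  rw [orderOf_units, hg, Nat.card_eq_fintype_card, Fintype.card_units, hF]

theorem pow_card' (hF : Fintype.card F = q ^ 2) (x : F) : x ^ (q ^ 2) = x := by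
  rw [← hF, FiniteField.pow_card]

omit [Fintype F] in
theorem aux_ab (a b : F) (ha : a ≠ 0) (hb : b ≠ 0) :
    (b * a⁻¹ = a ∧ a = b⁻¹) ↔ (a * b = 1 ∧ a ^ 3 = 1) := by
  constructor
  · rintro ⟨h1, h2⟩
    have h3 : a * b = 1 := by
      rw [h2, inv_mul_cancel₀ hb]
    refine ⟨h3, ?_⟩
    have h4 : b = a * a := by
      field_simp at h1
      rw [h1]
      ring
    rw [h4] at h3
    rw [← h3]
    ring
  · rintro ⟨h1, h2⟩
    have h3 : a = b⁻¹ := eq_inv_of_mul_eq_one_left h1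
    refine ⟨?_, h3⟩
    have h4 : b = a⁻¹ := eq_inv_of_mul_eq_one_right h1
    rw [h4]
    field_simp
    rw [← h2]

omit [Fintype F] in
theorem orderOf_zeta (r : ℕ) (y : F) (hy : orderOf y = (r + 2) ^ 2 - 1) :
    orderOf (y ^ (r + 1)) = r + 3 := by
  have h1 : (r + 2) ^ 2 - 1 = (r + 1) * (r + 3) := by
    have : (r + 2) ^ 2 = (r + 1) * (r + 3) + 1 := by ring
    omega
  rw [orderOf_pow' y (by omega), hy, h1, Nat.gcd_eq_right (Dvd.intro _ rfl),
    Nat.mul_div_cancel_left _ (by omega)]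

/-- an element of order `q + 1` -/
theorem exists_order_one (hF : Fintype.card F = q ^ 2) :
    ∃ g : Cfsg.PSU 3 F q, orderOf g = q + 1 := by
  classical
  obtain ⟨φ, hφ, hφ2, l, hl⟩ := exists_phi hF
  obtain ⟨y, hy0, hy⟩ := exists_gen hF
  have hq := q_ge hF
  obtain ⟨r, rfl⟩ : ∃ r, q = r + 2 := ⟨q - 2, by omega⟩
  have hζ := orderOf_zeta r y hy
  obtain ⟨ζ, hζdef⟩ : ∃ ζ : F, ζ = y ^ (r + 1) := ⟨_, rfl⟩
  rw [← hζdef] at hζ
  have hζ0 : ζ ≠ 0 := by
    rw [hζdef]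
    exact pow_ne_zero _ hy0
  have hζ1 : ζ ^ (r + 2) * ζ = 1 := by
    rw [← pow_succ, ← hζ]
    exact pow_orderOf_eq_one ζ
  refine exists_order hF (Matrix.diagonal ![ζ, ζ⁻¹, 1]) 1 φ hφ ?_ isUnit_one ?_ (r + 2 + 1) ?_
  · rw [Matrix.det_diagonal, Fin.prod_univ_three]
    simp [hζ0]
  · apply diag_preserves
    intro i j
    fin_cases i <;> fin_cases j <;> simp [hφ]
    · exact hζ1
    · rw [← mul_inv, hζ1, inv_one]
  · intro m
    rw [diag_scal]
    simp only [Matrix.cons_val_zero, Matrix.cons_val_one, Matrix.cons_val_two, Matrix.head_cons,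
      Matrix.tail_cons, one_pow, inv_pow]
    rw [← hζ, orderOf_dvd_iff_pow_eq_one]
    constructor
    · rintro ⟨h1, h2⟩
      rw [h1, h2]
    · intro h
      rw [h]
      simp

/-- an element of order `(q^2 - 1)/d` -/
theorem exists_order_three (hF : Fintype.card F = q ^ 2) :
    ∃ g : Cfsg.PSU 3 F q, orderOf g = (q ^ 2 - 1) / Nat.gcd 3 (q + 1) := by
  classical
  obtain ⟨φ, hφ, hφ2, l, hl⟩ := exists_phi hF
  obtain ⟨y, hy0, hy⟩ := exists_gen hF
  have hq := q_ge hF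
  have hyq : y ^ (q ^ 2) = y := pow_card' hF y
  have hyq' : (y ^ q) ^ q = y := by rw [← pow_mul, ← sq, hyq]
  have hG : IsUnit (!![1, 0, 0; 0, 0, 1; 0, 1, 0] : Matrix (Fin 3) (Fin 3) F) := by
    apply IsUnit.of_mul_eq_one (!![1, 0, 0; 0, 0, 1; 0, 1, 0] : Matrix (Fin 3) (Fin 3) F)
    ext i j
    fin_cases i <;> fin_cases j <;> simp [Matrix.mul_apply, Fin.sum_univ_three]
  have hdvd : Nat.gcd 3 (q + 1) ∣ q ^ 2 - 1 := by
    obtain ⟨r, rfl⟩ : ∃ r, q = r + 2 := ⟨q - 2, by omega⟩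
    have h1 : (r + 2) ^ 2 - 1 = (r + 2 + 1) * (r + 1) := by
      have : (r + 2) ^ 2 = (r + 2 + 1) * (r + 1) + 1 := by ring
      omega
    rw [h1]
    exact Dvd.dvd.mul_right (Nat.gcd_dvd_right _ _) _
  refine exists_order hF (Matrix.diagonal ![y ^ q * y⁻¹, y, (y ^ q)⁻¹])
    !![1, 0, 0; 0, 0, 1; 0, 1, 0] φ hφ ?_ hG ?_ _ ?_
  · rw [Matrix.det_diagonal, Fin.prod_univ_three]
    simp only [Matrix.cons_val_zero, Matrix.cons_val_one, Matrix.cons_val_two, Matrix.head_cons,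
      Matrix.tail_cons]
    field_simp
  · apply diag_preserves
    intro i j
    fin_cases i <;> fin_cases j <;> simp [hφ]
    · rw [mul_pow, hyq', inv_pow]
      field_simp
    · exact mul_inv_cancel₀ (pow_ne_zero _ hy0)
    · rw [← inv_pow, inv_pow, hyq', inv_mul_cancel₀ hy0]
  · intro m
    rw [diag_scal, ← nt (q ^ 2 - 1) (q + 1) m hdvd, ← hy, orderOf_dvd_iff_pow_eq_one,
      orderOf_dvd_iff_pow_eq_one]
    simp only [Matrix.cons_val_zero, Matrix.cons_val_one, Matrix.cons_val_two, Matrix.head_cons,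
      Matrix.tail_cons]
    rw [mul_pow, inv_pow, inv_pow, aux_ab (y ^ m) ((y ^ q) ^ m) (pow_ne_zero _ hy0)
      (pow_ne_zero _ (pow_ne_zero _ hy0))]
    have h1 : y ^ ((q + 1) * m) = y ^ m * (y ^ q) ^ m := by
      rw [← pow_mul, ← pow_add]
      congr 1
      ring
    have h2 : y ^ (3 * m) = (y ^ m) ^ 3 := by
      rw [← pow_mul, mul_comm]
    rw [h1, h2]

/-- an element of order `p (q + 1)/d` -/
theorem exists_order_two (p : ℕ) [Fact p.Prime] [CharP F p] (hF : Fintype.card F = q ^ 2) :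
    ∃ g : Cfsg.PSU 3 F q, orderOf g = p * (q + 1) / Nat.gcd 3 (q + 1) := by
  classical
  obtain ⟨φ, hφ, hφ2, l, hl⟩ := exists_phi hF
  obtain ⟨y, hy0, hy⟩ := exists_gen hF
  have hq := q_ge hF
  have hp : p.Prime := Fact.out
  have hpq : p ∣ q := by
    obtain ⟨n, -, hn⟩ := FiniteField.card F p
    have h1 : p ∣ q ^ 2 := by
      rw [← hF, hn]
      exact dvd_pow_self p n.ne_zero
    exact hp.dvd_of_dvd_pow h1
  obtain ⟨r, rfl⟩ : ∃ r, q = r + 2 := ⟨q - 2, by omega⟩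
  have hζ := orderOf_zeta r y hy
  obtain ⟨ζ, hζdef⟩ : ∃ ζ : F, ζ = y ^ (r + 1) := ⟨_, rfl⟩
  rw [← hζdef] at hζ
  have hζ0 : ζ ≠ 0 := by
    rw [hζdef]
    exact pow_ne_zero _ hy0
  have hζ1 : ζ ^ (r + 2) * ζ = 1 := by
    rw [← pow_succ, ← hζ]
    exact pow_orderOf_eq_one ζ
  obtain ⟨c, hc0, hc⟩ : ∃ c : F, c ≠ 0 ∧ φ c = -c := by
    refine ⟨l - φ l, ?_, ?_⟩
    · intro h
      exact hl (sub_eq_zero.1 h).symm
    · rw [map_sub, hφ2]
      ring
  have hG : IsUnit (!![0, 1, 0; 1, 0, 0; 0, 0, 1] : Matrix (Fin 3) (Fin 3) F) := by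
    apply IsUnit.of_mul_eq_one (!![0, 1, 0; 1, 0, 0; 0, 0, 1] : Matrix (Fin 3) (Fin 3) F)
    ext i j
    fin_cases i <;> fin_cases j <;> simp [Matrix.mul_apply, Fin.sum_univ_three]
  have hpow : ∀ m : ℕ,
      (!![ζ, ζ * c, 0; 0, ζ, 0; 0, 0, (ζ ^ 2)⁻¹] : Matrix (Fin 3) (Fin 3) F) ^ m =
      !![ζ ^ m, (m : F) * ζ ^ m * c, 0; 0, ζ ^ m, 0; 0, 0, ((ζ ^ m) ^ 2)⁻¹] := by
    intro m
    induction m with
    | zero =>
      ext i j
      fin_cases i <;> fin_cases j <;> simp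
    | succ m ih =>
      rw [pow_succ, ih]
      ext i j
      fin_cases i <;> fin_cases j <;>
        simp [Matrix.mul_apply, Fin.sum_univ_three] <;> ring
  refine exists_order hF !![ζ, ζ * c, 0; 0, ζ, 0; 0, 0, (ζ ^ 2)⁻¹]
    !![0, 1, 0; 1, 0, 0; 0, 0, 1] φ hφ ?_ hG ?_ _ ?_
  · rw [Matrix.det_fin_three]
    simp
    field_simp
  · ext i j
    fin_cases i <;> fin_cases j <;>
      simp [adj_apply, Matrix.mul_apply, Fin.sum_univ_three, hφ]
    · exact hζ1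
    · exact hζ1
    · have hc' : c ^ (r + 2) = -c := by rw [← hφ c, hc]
      rw [mul_pow, hc']
      ring
    · have h1 : (ζ ^ 2) ^ (r + 2) * ζ ^ 2 = (ζ ^ (r + 2) * ζ) ^ 2 := by ring
      rw [← mul_inv, h1, hζ1, one_pow, inv_one]
  · intro m
    rw [hpow]
    have hcop : Nat.Coprime p ((r + 2 + 1) / Nat.gcd 3 (r + 2 + 1)) := by
      have h1 : Nat.Coprime (r + 2) (r + 2 + 1) := by simp
      exact Nat.Coprime.coprime_dvd_right (Nat.div_dvd_of_dvd (Nat.gcd_dvd_right _ _))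
        (Nat.Coprime.coprime_dvd_left hpq h1)
    have hnt := nt (r + 2 + 1) (r + 2 + 1) m (Nat.gcd_dvd_right 3 (r + 2 + 1))
    rw [Nat.mul_div_assoc p (Nat.gcd_dvd_right 3 (r + 2 + 1))]
    have h3 : ζ ^ (3 * m) = (ζ ^ m) ^ 3 := by
      rw [← pow_mul, mul_comm]
    have hζm : ζ ^ m ≠ 0 := pow_ne_zero _ hζ0
    constructor
    · rintro ⟨c', hc'⟩
      have h01 := congrFun (congrFun hc' 0) 1
      have h00 := congrFun (congrFun hc' 0) 0
      have h22 := congrFun (congrFun hc' 2) 2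
      simp at h01 h00 h22
      have hm : (m : F) = 0 := by
        rcases h01 with (h | h) | h
        · exact h
        · exact absurd h.1 hζ0
        · exact absurd h hc0
      have hpm : p ∣ m := (CharP.cast_eq_zero_iff F p m).1 hm
      have h4 : (ζ ^ m) ^ 3 = 1 := by
        rw [← h00] at h22
        field_simp at h22
        rw [← h22]
      have h5 : r + 2 + 1 ∣ 3 * m := by
        rw [← hζ, orderOf_dvd_iff_pow_eq_one, h3, h4]
      exact Nat.Coprime.mul_dvd_of_dvd_of_dvd hcop hpm (hnt.1 ⟨Dvd.intro _ rfl, h5⟩)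
    · intro h
      have hpm : p ∣ m := dvd_trans (Dvd.intro _ rfl) h
      have h5 : r + 2 + 1 ∣ 3 * m := (hnt.2 (dvd_trans (Dvd.intro_left _ rfl) h)).2
      rw [← hζ, orderOf_dvd_iff_pow_eq_one, h3] at h5
      have hm : (m : F) = 0 := (CharP.cast_eq_zero_iff F p m).2 hpm
      refine ⟨ζ ^ m, ?_⟩
      ext i j
      fin_cases i <;> fin_cases j <;> simp [hm]
      field_simp
      rw [← h5]

end fin

end Cfsg.Agent.Lib.Helper39.PSU3Elts
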