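-- An element of PSU_3(q) of order (q^2-q+1)/d, from the cubic extension of F_{q^2}.
import Mathlib
import Cfsg.Prelude.Def_Classical
import Cfsg.Agent.Lib.Helper39.PSU3Elts

set_option autoImplicit false

namespace Cfsg.Agent.Lib.Helper39.PSU3Torus

open Matrix
open Cfsg.Agent.Lib.Helper40.HermAdj Cfsg.Agent.Lib.Helper39.PSU3Conj
open Cfsg.Agent.Lib.Helper39.PSU3Elts

section ext

variable {F : Type*} [Field F] {L : Type*} [Field L] [Algebra F L]

/-- elements fixed by `x ↦ x ^ |F|` lie in `F` -/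
theorem mem_range_of_pow [Fintype F] [Finite L] (x : L) (hx : x ^ Fintype.card F = x) :
    ∃ c : F, algebraMap F L c = x := by
  classical
  have hQ : 1 < Fintype.card F := Fintype.one_lt_card
  have hne : (Polynomial.X ^ Fintype.card F - Polynomial.X : Polynomial L) ≠ 0 :=
    FiniteField.X_pow_card_sub_X_ne_zero L hQ
  have h1 : (Finset.univ : Finset F).image (algebraMap F L) ⊆
      (Polynomial.X ^ Fintype.card F - Polynomial.X : Polynomial L).roots.toFinset := by
    intro y hy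
    obtain ⟨c, -, rfl⟩ := Finset.mem_image.1 hy
    rw [Multiset.mem_toFinset, Polynomial.mem_roots hne]
    simp only [Polynomial.IsRoot.def, Polynomial.eval_sub, Polynomial.eval_pow, Polynomial.eval_X]
    rw [← map_pow, FiniteField.pow_card, sub_self]
  have h2 : ((Polynomial.X ^ Fintype.card F - Polynomial.X : Polynomial L).roots.toFinset).card ≤
      ((Finset.univ : Finset F).image (algebraMap F L)).card := by
    rw [Finset.card_image_of_injective _ (algebraMap F L).injective, Finset.card_univ]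
    have h3 := Multiset.toFinset_card_le (Polynomial.X ^ Fintype.card F - Polynomial.X : Polynomial L).roots
    have h4 := Polynomial.card_roots' (Polynomial.X ^ Fintype.card F - Polynomial.X : Polynomial L)
    rw [FiniteField.X_pow_card_sub_X_natDegree_eq L hQ] at h4
    omega
  have h5 := Finset.eq_of_subset_of_card_le h1 h2
  have h6 : x ∈ (Polynomial.X ^ Fintype.card F - Polynomial.X : Polynomial L).roots.toFinset := by
    rw [Multiset.mem_toFinset, Polynomial.mem_roots hne]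
    simp only [Polynomial.IsRoot.def, Polynomial.eval_sub, Polynomial.eval_pow, Polynomial.eval_X]
    rw [hx, sub_self]
  rw [← h5] at h6
  obtain ⟨c, -, hc⟩ := Finset.mem_image.1 h6
  exact ⟨c, hc⟩

/-- the Gram matrix of the twisted trace form -/
noncomputable def gram (b : Module.Basis (Fin 3) F L) (ψ : L →+* L) : Matrix (Fin 3) (Fin 3) F :=
  Matrix.of fun k l => Algebra.trace F L (b l * ψ (b k))

theorem psi_smul (φ : F →+* F) (ψ : L →+* L)
    (hψφ : ∀ c, ψ (algebraMap F L c) = algebraMap F L (φ c)) (c : F) (x : L) :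
    ψ (c • x) = φ c • ψ x := by
  rw [Algebra.smul_def, map_mul, hψφ, ← Algebra.smul_def]

theorem trace_sesq (b : Module.Basis (Fin 3) F L) (φ : F →+* F) (ψ : L →+* L)
    (hψφ : ∀ c, ψ (algebraMap F L c) = algebraMap F L (φ c)) (u v : Fin 3 → F) :
    Algebra.trace F L ((∑ l, u l • b l) * ψ (∑ k, v k • b k)) =
      ∑ l, ∑ k, u l * φ (v k) * Algebra.trace F L (b l * ψ (b k)) := by
  rw [map_sum, Finset.sum_mul_sum, map_sum]
  refine Finset.sum_congr rfl fun l _ => ?_
  rw [map_sum]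
  refine Finset.sum_congr rfl fun k _ => ?_
  rw [psi_smul φ ψ hψφ, smul_mul_smul_comm, map_smul, smul_eq_mul]

theorem gram_preserved (b : Module.Basis (Fin 3) F L) (φ : F →+* F) (ψ : L →+* L)
    (hψφ : ∀ c, ψ (algebraMap F L c) = algebraMap F L (φ c)) (a : L) (ha : ψ a * a = 1) :
    adj φ (Algebra.leftMulMatrix b a) * gram b ψ * Algebra.leftMulMatrix b a = gram b ψ := by
  classical
  ext i j
  have hrep : ∀ j : Fin 3, a * b j = ∑ l, Algebra.leftMulMatrix b a l j • b l := by
    intro j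
    conv_lhs => rw [← b.sum_repr (a * b j)]
    refine Finset.sum_congr rfl fun l _ => ?_
    rw [Algebra.leftMulMatrix_eq_repr_mul]
  have h1 : gram b ψ i j = Algebra.trace F L ((a * b j) * ψ (a * b i)) := by
    show Algebra.trace F L (b j * ψ (b i)) = _
    congr 1
    rw [map_mul]
    calc b j * ψ (b i) = (ψ a * a) * (b j * ψ (b i)) := by rw [ha, one_mul]
      _ = a * b j * (ψ a * ψ (b i)) := by ring
  rw [h1, hrep j, hrep i, trace_sesq b φ ψ hψφ, Matrix.mul_apply]
  refine Finset.sum_congr rfl fun l _ => ?_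
  rw [Matrix.mul_apply, Finset.sum_mul]
  refine Finset.sum_congr rfl fun k _ => ?_
  rw [adj_apply]
  show φ (Algebra.leftMulMatrix b a k i) * Algebra.trace F L (b l * ψ (b k)) *
    Algebra.leftMulMatrix b a l j = _
  ring

theorem gram_unit [FiniteDimensional F L] [Algebra.IsSeparable F L]
    (b : Module.Basis (Fin 3) F L) (φ : F →+* F) (ψ : L →+* L)
    (hψφ : ∀ c, ψ (algebraMap F L c) = algebraMap F L (φ c)) (hψ2 : ∀ x, ψ (ψ x) = x) :
    IsUnit (gram b ψ) := by
  classical
  rw [Matrix.isUnit_iff_isUnit_det, isUnit_iff_ne_zero]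
  intro hdet
  obtain ⟨v, hv0, hv⟩ := Matrix.exists_mulVec_eq_zero_iff.2 hdet
  apply hv0
  have h1 : ∀ k, Algebra.trace F L ((∑ l, v l • b l) * ψ (b k)) = 0 := by
    intro k
    have h2 := congrFun hv k
    rw [Finset.sum_mul, map_sum]
    rw [Matrix.mulVec, dotProduct] at h2
    rw [Pi.zero_apply] at h2
    rw [← h2]
    refine Finset.sum_congr rfl fun l _ => ?_
    rw [smul_mul_assoc, map_smul, smul_eq_mul, mul_comm]
    rfl
  have h3 : ∀ y : L, Algebra.trace F L ((∑ l, v l • b l) * ψ y) = 0 := by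
    intro y
    rw [← b.sum_repr y, map_sum, Finset.mul_sum, map_sum]
    refine Finset.sum_eq_zero fun k _ => ?_
    rw [psi_smul φ ψ hψφ, mul_smul_comm, map_smul, h1 k, smul_zero]
  have h4 : (∑ l, v l • b l) = 0 := by
    apply (_root_.traceForm_nondegenerate F L).1
    intro y
    rw [Algebra.traceForm_apply, ← hψ2 y]
    exact h3 (ψ y)
  exact funext (Fintype.linearIndependent_iff.1 b.linearIndependent v h4)

theorem leftMul_scal (b : Module.Basis (Fin 3) F L) (a : L) (m : ℕ) :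
    (∃ c : F, Algebra.leftMulMatrix b a ^ m = c • (1 : Matrix (Fin 3) (Fin 3) F)) ↔
      ∃ c : F, algebraMap F L c = a ^ m := by
  classical
  have h1 : ∀ c : F, c • (1 : Matrix (Fin 3) (Fin 3) F) =
      Algebra.leftMulMatrix b (algebraMap F L c) := by
    intro c
    rw [AlgHom.commutes, Algebra.algebraMap_eq_smul_one]
  constructor
  · rintro ⟨c, hc⟩
    refine ⟨c, ?_⟩
    rw [← map_pow, h1] at hc
    exact (Algebra.leftMulMatrix_injective b hc).symm
  · rintro ⟨c, hc⟩
    refine ⟨c, ?_⟩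
    rw [← map_pow, h1, hc]

end ext

section main

variable {F : Type*} [Field F] [Fintype F] {q : ℕ}

/-- an element of order `(q^2 - q + 1)/d` -/
theorem exists_order_four (p : ℕ) [Fact p.Prime] [CharP F p] (hF : Fintype.card F = q ^ 2) :
    ∃ g : Cfsg.PSU 3 F q, orderOf g = (q ^ 2 - q + 1) / Nat.gcd 3 (q + 1) := by
  classical
  obtain ⟨φ, hφ, hφ2, l, hl⟩ := exists_phi hF
  have hq := q_ge hF
  have hp : p.Prime := Fact.out
  obtain ⟨k, hk⟩ : ∃ k, q = p ^ k := by
    obtain ⟨n, -, hn⟩ := FiniteField.card F p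
    have hdvd : q ∣ p ^ (n : ℕ) := by
      rw [← hn, hF]
      exact dvd_pow_self q (by norm_num)
    obtain ⟨k, -, hk⟩ := (Nat.dvd_prime_pow hp).mp hdvd
    exact ⟨k, hk⟩
  have : NeZero (3 : ℕ) := ⟨by norm_num⟩
  obtain ⟨L, _, _, _, hfin, hcard⟩ : ∃ (L : Type) (_ : Field L) (_ : Finite L) (_ : Algebra F L),
      Module.finrank F L = 3 ∧ Nat.card L = q ^ 6 := by
    refine ⟨FiniteField.Extension F p 3, inferInstance, inferInstance, inferInstance,
      FiniteField.finrank_extension F p 3, ?_⟩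
    rw [FiniteField.natCard_extension, Nat.card_eq_fintype_card, hF]
    ring
  have : CharP L p := charP_of_injective_algebraMap (algebraMap F L).injective p
  have : Fintype L := Fintype.ofFinite L
  have : FiniteDimensional F L := Module.Finite.of_finite
  have hcard' : Fintype.card L = q ^ 6 := by rw [← Nat.card_eq_fintype_card, hcard]
  obtain ⟨b⟩ : Nonempty (Module.Basis (Fin 3) F L) := ⟨Module.finBasisOfFinrankEq F L hfin⟩
  obtain ⟨ψ, hψ⟩ : ∃ ψ : L →+* L, ∀ x, ψ x = x ^ (q ^ 3) := by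
    refine ⟨iterateFrobenius L p (k * 3), fun x => ?_⟩
    rw [iterateFrobenius_def, hk, ← pow_mul]
  have hψφ : ∀ c, ψ (algebraMap F L c) = algebraMap F L (φ c) := by
    intro c
    rw [hψ, hφ, ← map_pow]
    congr 1
    have h1 : c ^ (q ^ 2) = c := pow_card' hF c
    calc c ^ (q ^ 3) = (c ^ (q ^ 2)) ^ q := by
          rw [← pow_mul]
          congr 1
      _ = c ^ q := by rw [h1]
  have hψ2 : ∀ x, ψ (ψ x) = x := by
    intro x
    rw [hψ, hψ, ← pow_mul]
    have h1 : q ^ 3 * q ^ 3 = Fintype.card L := by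
      rw [hcard']
      ring
    rw [h1, FiniteField.pow_card]
  obtain ⟨r, rfl⟩ : ∃ r, q = r + 2 := ⟨q - 2, by omega⟩
  have hE : (r + 2) ^ 2 - (r + 2) + 1 = r ^ 2 + 3 * r + 3 := by
    have h1 : (r + 2) ^ 2 = r ^ 2 + 3 * r + 2 + (r + 2) := by ring
    omega
  obtain ⟨a, ha0, ha⟩ : ∃ a : L, a ≠ 0 ∧ orderOf a = r ^ 2 + 3 * r + 3 := by
    obtain ⟨g, hg⟩ := IsCyclic.exists_ofOrder_eq_natCard (α := Lˣ)
    have hg' : orderOf (g : L) = (r + 2) ^ 6 - 1 := by
      rw [orderOf_units, hg, Nat.card_eq_fintype_card, Fintype.card_units, hcard']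
    have h1 : (r + 2) ^ 6 - 1 =
        (r ^ 2 + 3 * r + 3) * ((r ^ 3 + 6 * r ^ 2 + 12 * r + 7) * (r + 3)) := by
      have h2 : (r + 2) ^ 6 =
          (r ^ 2 + 3 * r + 3) * ((r ^ 3 + 6 * r ^ 2 + 12 * r + 7) * (r + 3)) + 1 := by ring
      omega
    refine ⟨(g : L) ^ ((r ^ 3 + 6 * r ^ 2 + 12 * r + 7) * (r + 3)), pow_ne_zero _ g.ne_zero, ?_⟩
    rw [orderOf_pow_of_dvd (by positivity) (by rw [hg', h1]; exact Dvd.intro_left _ rfl), hg', h1,
      Nat.mul_div_cancel _ (by positivity)]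
  have ha1 : ψ a * a = 1 := by
    rw [hψ, ← pow_succ]
    have h1 : (r + 2) ^ 3 + 1 = (r ^ 2 + 3 * r + 3) * (r + 3) := by ring
    rw [h1, ← ha, pow_mul, pow_orderOf_eq_one, one_pow]
  have hnorm : Algebra.norm F a = 1 := by
    apply (algebraMap F L).injective
    rw [FiniteField.algebraMap_norm_eq_pow_sum, hfin, Nat.card_eq_fintype_card, hF, map_one]
    have h1 : ∑ i ∈ Finset.range 3, ((r + 2) ^ 2) ^ i =
        (r ^ 2 + 3 * r + 3) * (r ^ 2 + 5 * r + 7) := by
      simp only [Finset.sum_range_succ, Finset.sum_range_zero]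
      ring
    rw [h1, ← ha, pow_mul, pow_orderOf_eq_one, one_pow]
  have hdvd : Nat.gcd 3 (r + 2 + 1) ∣ r ^ 2 + 3 * r + 3 := by
    have h1 : r ^ 2 + 3 * r + 3 = (r + 2 + 1) * r + 3 := by ring
    rw [h1]
    exact dvd_add (Dvd.dvd.mul_right (Nat.gcd_dvd_right _ _) _) (Nat.gcd_dvd_left _ _)
  rw [hE]
  refine exists_order hF (Algebra.leftMulMatrix b a) (gram b ψ) φ hφ ?_
    (gram_unit b φ ψ hψφ hψ2) (gram_preserved b φ ψ hψφ a ha1) _ ?_
  · rw [← Algebra.norm_eq_matrix_det, hnorm]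
  · intro m
    rw [leftMul_scal, ← nt (r ^ 2 + 3 * r + 3) (r + 2 + 1) m hdvd]
    have hkey : (∃ c : F, algebraMap F L c = a ^ m) ↔ a ^ (m * ((r + 1) * (r + 3))) = 1 := by
      have h1 : (a ^ m) ^ Fintype.card F = a ^ (m * ((r + 1) * (r + 3))) * a ^ m := by
        rw [hF, ← pow_mul, ← pow_add]
        congr 1
        ring
      constructor
      · rintro ⟨c, hc⟩
        have h2 : (a ^ m) ^ Fintype.card F = a ^ m := by
          rw [← hc, ← map_pow, FiniteField.pow_card]
        rw [h1] at h2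
        exact mul_right_cancel₀ (pow_ne_zero m ha0) (by rw [h2, one_mul])
      · intro h
        apply mem_range_of_pow
        rw [h1, h, one_mul]
    rw [hkey, ← orderOf_dvd_iff_pow_eq_one, ha]
    have h2 : m * ((r + 1) * (r + 3)) = (r + 1) * ((r + 2 + 1) * m) := by ring
    rw [h2]
    constructor
    · intro h
      have hcop : Nat.Coprime (r ^ 2 + 3 * r + 3) (r + 1) := by
        have h3 : r ^ 2 + 3 * r + 3 = (r + 2) * (r + 1) + 1 := by ring
        rw [h3]
        simp
      have h1 : r ^ 2 + 3 * r + 3 ∣ (r + 2 + 1) * m := hcop.dvd_of_dvd_mul_left h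
      refine ⟨h1, ?_⟩
      have h3 : r ^ 2 + 3 * r + 3 ∣ r * ((r + 2 + 1) * m) + 3 * m := ⟨m, by ring⟩
      exact (Nat.dvd_add_right (Dvd.dvd.mul_left h1 r)).1 h3
    · rintro ⟨h1, -⟩
      exact Dvd.dvd.mul_left h1 _

end main

end Cfsg.Agent.Lib.Helper39.PSU3Torus
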