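-- Characteristic polynomials of unitary matrices: the root multiset is stable under x ↦ x^(-q);
-- consequence for elements of order p*r in a unitary group.
import Mathlib

set_option autoImplicit false

namespace Cfsg.Agent.Lib.Helper39.UnitaryCharpoly

open Polynomial

section Poly

variable {E : Type*} [Field E]

theorem reverse_X_sub_C' (a : E) : (X - C a : E[X]).reverse = 1 - C a * X := by
  rw [reverse, natDegree_X_sub_C, reflect_sub, reflect_one_X, reflect_C, pow_one]

theorem reverse_pow' (f : E[X]) (k : ℕ) : (f ^ k).reverse = f.reverse ^ k := by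
  induction k with
  | zero => rw [pow_zero, pow_zero, ← C_1, reverse_C]
  | succ k ih => rw [pow_succ, reverse_mul_of_domain, ih, pow_succ]

theorem dvd_reverse (Q : E[X]) (a : E) (ha : a ≠ 0) (k : ℕ) (h : (X - C a) ^ k ∣ Q) :
    (X - C a⁻¹) ^ k ∣ Q.reverse := by
  obtain ⟨S, rfl⟩ := h
  rw [reverse_mul_of_domain, reverse_pow', reverse_X_sub_C']
  apply Dvd.dvd.mul_right
  apply pow_dvd_pow_of_dvd
  refine ⟨C (-a), ?_⟩
  have h1 : (C a⁻¹ * C (-a) : E[X]) = -1 := by
    rw [← C_mul, mul_neg, inv_mul_cancel₀ ha, C_neg, C_1]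
  rw [sub_mul, h1, C_neg]
  ring

theorem reverse_reverse' (P : E[X]) (h0 : P.coeff 0 ≠ 0) : P.reverse.reverse = P := by
  have h1 : P.natTrailingDegree = 0 := natTrailingDegree_eq_zero.2 (Or.inr h0)
  have h2 : P.reverse.natDegree = P.natDegree := by rw [reverse_natDegree, h1, Nat.sub_zero]
  show reflect P.reverse.natDegree P.reverse = P
  rw [h2]
  show reflect P.natDegree (reflect P.natDegree P) = P
  exact reflect_reflect

/-- Symmetry of root multiplicities for a polynomial proportional to its twisted reverse. -/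
theorem symm_mult (P : E[X]) (hP0 : P.coeff 0 ≠ 0) (σ : E →+* E) (c : E) (hc : c ≠ 0)
    (h : P.map σ = C c * P.reverse) (x : E) (hx : x ≠ 0) :
    P.rootMultiplicity x ≤ P.rootMultiplicity (σ x)⁻¹ := by
  have hP : P ≠ 0 := by
    rintro rfl
    simp at hP0
  have h1 : (X - C x) ^ P.rootMultiplicity x ∣ P := pow_rootMultiplicity_dvd P x
  have h2 : (X - C (σ x)) ^ P.rootMultiplicity x ∣ P.map σ := by
    have h3 := Polynomial.map_dvd σ h1
    simpa using h3
  rw [h] at h2
  have h4 : (X - C (σ x)) ^ P.rootMultiplicity x ∣ P.reverse :=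
    (IsUnit.dvd_mul_left (Polynomial.isUnit_C.2 (isUnit_iff_ne_zero.2 hc))).1 h2
  have h5 := dvd_reverse P.reverse (σ x) (by simpa using hx) _ h4
  rw [reverse_reverse' P hP0] at h5
  exact (le_rootMultiplicity_iff hP).2 h5

theorem sum_rootMultiplicity_le (P : E[X]) (S : Finset E) :
    ∑ y ∈ S, P.rootMultiplicity y ≤ P.natDegree := by
  classical
  have h1 : ∑ y ∈ S, P.rootMultiplicity y = ∑ y ∈ S, (P.roots.filter (· ∈ S)).count y := by
    apply Finset.sum_congr rfl
    intro y hy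
    rw [Multiset.count_filter_of_pos hy, count_roots]
  rw [h1, Multiset.sum_count_eq_card (fun a ha => (Multiset.mem_filter.1 ha).2)]
  exact le_trans (Multiset.card_le_card (Multiset.filter_le _ _)) (card_roots' P)

end Poly

section Count

variable {E : Type*} [Field E]

/-- The orbit of an `r`-th root of unity `u ≠ 1` under `y ↦ y^(-s)`: `e = ord_r(-s)` distinct
elements different from `1`, each with root multiplicity at least that of `u`. -/
theorem exists_orbit (P : E[X]) (r s : ℕ) (hr : r.Prime) (hs : ¬ r ∣ s)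
    (h2 : ∀ x : E, x ≠ 0 → P.rootMultiplicity x ≤ P.rootMultiplicity ((x ^ s)⁻¹))
    (u : Eˣ) (hu : u ^ r = 1) (hu1 : u ≠ 1) :
    ∃ S : Finset E, S.card = orderOf (-(s : ZMod r)) ∧ (1 : E) ∉ S ∧
      ∀ y ∈ S, P.rootMultiplicity (u : E) ≤ P.rootMultiplicity y := by
  classical
  have : Fact r.Prime := ⟨hr⟩
  have hord : orderOf u = r := orderOf_eq_prime hu hu1
  have hstep : ∀ j : ℕ, ((((u ^ ((-(s : ℤ)) ^ j) : Eˣ) : E)) ^ s)⁻¹ =
      ((u ^ ((-(s : ℤ)) ^ (j + 1)) : Eˣ) : E) := by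
    intro j
    rw [← Units.val_pow_eq_pow_val, ← Units.val_inv_eq_inv_val]
    congr 1
    rw [← zpow_natCast, ← zpow_neg, ← zpow_mul, pow_succ]
  have hmult : ∀ j : ℕ, P.rootMultiplicity (u : E) ≤
      P.rootMultiplicity (((u ^ ((-(s : ℤ)) ^ j) : Eˣ) : E)) := by
    intro j
    induction j with
    | zero => simp
    | succ j ih =>
      refine le_trans ih ?_
      have h3 := h2 (((u ^ ((-(s : ℤ)) ^ j) : Eˣ) : E)) (Units.ne_zero _)
      rw [hstep j] at h3
      exact h3
  have hcast : ∀ j : ℕ, ((((-(s : ℤ)) ^ j : ℤ)) : ZMod r) = (-(s : ZMod r)) ^ j := by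
    intro j
    push_cast
    rfl
  have hinj : Set.InjOn (fun j : ℕ => ((u ^ ((-(s : ℤ)) ^ j) : Eˣ) : E))
      (Finset.range (orderOf (-(s : ZMod r))) : Set ℕ) := by
    intro i hi j hj hij
    have h3 : (u ^ ((-(s : ℤ)) ^ i) : Eˣ) = u ^ ((-(s : ℤ)) ^ j) := Units.ext hij
    rw [zpow_eq_zpow_iff_modEq, hord] at h3
    have h4 := (ZMod.intCast_eq_intCast_iff _ _ r).2 h3
    rw [hcast, hcast] at h4
    exact pow_injOn_Iio_orderOf (by simpa using hi) (by simpa using hj) h4
  refine ⟨(Finset.range (orderOf (-(s : ZMod r)))).image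
    (fun j : ℕ => ((u ^ ((-(s : ℤ)) ^ j) : Eˣ) : E)), ?_, ?_, ?_⟩
  · rw [Finset.card_image_of_injOn hinj, Finset.card_range]
  · intro h1
    obtain ⟨j, _, hj⟩ := Finset.mem_image.1 h1
    have h3 : (u ^ ((-(s : ℤ)) ^ j) : Eˣ) = 1 := Units.ext hj
    rw [← orderOf_dvd_iff_zpow_eq_one, hord] at h3
    have h4 := (ZMod.intCast_zmod_eq_zero_iff_dvd _ r).2 h3
    rw [hcast] at h4
    have h5 : (s : ZMod r) = 0 := by
      by_cases hj0 : j = 0
      · subst hj0
        simp at h4
      · have h6 := (pow_eq_zero_iff hj0).1 h4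
        simpa using h6
    exact hs ((ZMod.natCast_eq_zero_iff s r).1 h5)
  · intro y hy
    obtain ⟨j, _, rfl⟩ := Finset.mem_image.1 hy
    exact hmult j

/-- The counting argument: if the root multiset of `P` (of degree `m`) consists of `r`-th roots of
unity, is stable under `x ↦ x^(-s)`, contains a root `≠ 1` and a multiple root, then
`ord_r(-s) + 2 ≤ m`. -/
theorem count_main (P : E[X]) (m r s : ℕ) (hm : P.natDegree = m) (hr : r.Prime) (hs : ¬ r ∣ s)
    (hP : P ≠ 0)
    (h1 : ∀ x, P.IsRoot x → x ^ r = 1)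
    (h2 : ∀ x : E, x ≠ 0 → P.rootMultiplicity x ≤ P.rootMultiplicity ((x ^ s)⁻¹))
    (h3 : ∃ x, x ≠ 1 ∧ P.IsRoot x)
    (h4 : ∃ x, 2 ≤ P.rootMultiplicity x)
    (he : 2 ≤ orderOf (-(s : ZMod r))) : orderOf (-(s : ZMod r)) + 2 ≤ m := by
  classical
  have hunit : ∀ x : E, x ^ r = 1 → x ≠ 0 := by
    intro x hx h0
    rw [h0, zero_pow hr.ne_zero] at hx
    exact zero_ne_one hx
  obtain ⟨x₁, hx₁⟩ := h4
  have hroot₁ : P.IsRoot x₁ := (rootMultiplicity_pos hP).1 (by omega)
  by_cases hx1 : x₁ = 1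
  · obtain ⟨x₀, hx₀1, hx₀⟩ := h3
    have hx₀r := h1 x₀ hx₀
    obtain ⟨S, hcard, hnot, hS⟩ := exists_orbit P r s hr hs h2 (Units.mk0 x₀ (hunit x₀ hx₀r))
      (Units.ext (by simpa using hx₀r)) (fun h => hx₀1 (by simpa using congrArg Units.val h))
    have hpos : 1 ≤ P.rootMultiplicity x₀ := (rootMultiplicity_pos hP).2 hx₀
    have hsum := sum_rootMultiplicity_le P (insert 1 S)
    rw [Finset.sum_insert hnot, hm] at hsum
    have hlow : S.card • 1 ≤ ∑ y ∈ S, P.rootMultiplicity y :=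
      Finset.card_nsmul_le_sum S _ 1 (fun y hy => le_trans hpos (hS y hy))
    rw [hcard, smul_eq_mul, mul_one] at hlow
    rw [hx1] at hx₁
    omega
  · have hx₁r := h1 x₁ hroot₁
    obtain ⟨S, hcard, hnot, hS⟩ := exists_orbit P r s hr hs h2 (Units.mk0 x₁ (hunit x₁ hx₁r))
      (Units.ext (by simpa using hx₁r)) (fun h => hx1 (by simpa using congrArg Units.val h))
    have hsum := sum_rootMultiplicity_le P S
    rw [hm] at hsum
    have hlow : S.card • 2 ≤ ∑ y ∈ S, P.rootMultiplicity y :=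
      Finset.card_nsmul_le_sum S _ 2 (fun y hy => le_trans hx₁ (hS y hy))
    rw [hcard, smul_eq_mul] at hlow
    omega

end Count

section Mat

variable {K : Type*} [Field K] {m : ℕ}

theorem root_pow_eq_one (A : Matrix (Fin m) (Fin m) K) (N : ℕ) (hA : A ^ N = 1) (x : K)
    (hx : A.charpoly.IsRoot x) : x ^ N = 1 := by
  rw [IsRoot, Matrix.eval_charpoly] at hx
  obtain ⟨v, hv0, hv⟩ := Matrix.exists_mulVec_eq_zero_iff.mpr hx
  have h1 : A.mulVec v = x • v := by
    rw [Matrix.sub_mulVec, sub_eq_zero] at hv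
    rw [← hv]
    funext i
    simp [Matrix.mulVec, dotProduct, Matrix.diagonal_apply]
  have h2 : ∀ k : ℕ, (A ^ k).mulVec v = x ^ k • v := by
    intro k
    induction k with
    | zero => simp
    | succ k ih =>
      rw [pow_succ, ← Matrix.mulVec_mulVec, h1, Matrix.mulVec_smul, ih, smul_smul, pow_succ,
        mul_comm]
  have h3 := h2 N
  rw [hA, Matrix.one_mulVec] at h3
  obtain ⟨i, hi⟩ : ∃ i, v i ≠ 0 := by
    by_contra hcon
    push_neg at hcon
    exact hv0 (funext hcon)
  have h4 := congrFun h3 i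
  simp only [Pi.smul_apply, smul_eq_mul] at h4
  have h5 : (x ^ N - 1) * v i = 0 := by linear_combination -h4
  rcases mul_eq_zero.1 h5 with h | h
  · exact sub_eq_zero.1 h
  · exact absurd h hi

theorem charpoly_unitary (T : Matrix (Fin m) (Fin m) K) (φ : K →+* K)
    (hT : T.transpose * T.map φ = 1) :
    ∃ c : K, c ≠ 0 ∧ T.charpoly.map φ = C c * T.charpoly.reverse := by
  have h1 : (T.transpose)⁻¹ = T.map φ := Matrix.inv_eq_right_inv hT
  have hdet : IsUnit T.transpose.det := by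
    have h3 := congrArg Matrix.det hT
    rw [Matrix.det_mul, Matrix.det_one] at h3
    exact IsUnit.of_mul_eq_one _ h3
  have hu : IsUnit T.transpose := (Matrix.isUnit_iff_isUnit_det _).2 hdet
  have h2 := Matrix.charpoly_inv T.transpose hu
  rw [h1, Matrix.charpoly_map, ← Matrix.reverse_charpoly, Matrix.charpoly_transpose,
    Ring.inverse_eq_inv'] at h2
  refine ⟨(-1) ^ m * (T.transpose.det)⁻¹,
    mul_ne_zero (pow_ne_zero _ (neg_ne_zero.2 one_ne_zero)) (inv_ne_zero hdet.ne_zero), ?_⟩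
  rw [h2]
  simp

/-- A unitary matrix `T` (for the `q`-Frobenius `φ`, `q` a power of the characteristic `p`)
with `T^(p r) = 1`, `T^r ≠ 1`, `T^p ≠ 1` for a prime `r ≠ p` lives in dimension
`m ≥ ord_r(-q) + 2`. -/
theorem main {F : Type*} [Field F] (p r q m j : ℕ) [Fact p.Prime] [CharP F p] (hr : r.Prime)
    (hrp : r ≠ p) (hq : q = p ^ j) (φ : F →+* F) (hφ : ∀ x, φ x = x ^ q)
    (T : Matrix (Fin m) (Fin m) F) (hT : T.transpose * T.map φ = 1)
    (h1 : T ^ (p * r) = 1) (h2 : T ^ r ≠ 1) (h3 : T ^ p ≠ 1)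
    (he : 2 ≤ orderOf (-(q : ZMod r))) : orderOf (-(q : ZMod r)) + 2 ≤ m := by
  classical
  have hp : p.Prime := Fact.out
  have hrq : ¬ r ∣ q := by
    rw [hq]
    intro h
    exact hrp ((Nat.prime_dvd_prime_iff_eq hr hp).1 (hr.dvd_of_dvd_pow h))
  obtain ⟨E, _, _, _, _⟩ : ∃ (E : Type _) (_ : Field E) (_ : Algebra F E) (_ : IsAlgClosed E),
      True := ⟨AlgebraicClosure F, inferInstance, inferInstance, inferInstance, trivial⟩
  haveI : CharP E p := charP_of_injective_algebraMap (algebraMap F E).injective p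
  obtain ⟨ι, hι⟩ : ∃ ι : F →+* E, ι = algebraMap F E := ⟨_, rfl⟩
  obtain ⟨σ, hσ⟩ : ∃ σ : E →+* E, ∀ x : E, σ x = x ^ q :=
    ⟨iterateFrobenius E p j, fun x => by rw [hq]; rfl⟩
  obtain ⟨P, hPdef⟩ : ∃ P : E[X], P = T.charpoly.map ι := ⟨_, rfl⟩
  have hmonic : P.Monic := by
    rw [hPdef]
    exact (Matrix.charpoly_monic T).map ι
  have hP : P ≠ 0 := hmonic.ne_zero
  have hdeg : P.natDegree = m := by
    rw [hPdef, natDegree_map, Matrix.charpoly_natDegree_eq_dim, Fintype.card_fin]
  have hPchar : P = (T.map ι).charpoly := by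
    rw [hPdef, Matrix.charpoly_map]
  have hTE : (T.map ι) ^ (p * r) = 1 := by
    have h5 : T.map ι = ι.mapMatrix T := rfl
    rw [h5, ← map_pow, h1, map_one]
  have hroot : ∀ x, P.IsRoot x → x ^ r = 1 := by
    intro x hx
    rw [hPchar] at hx
    have h5 := root_pow_eq_one (T.map ι) (p * r) hTE x hx
    have h6 : (x ^ r) ^ p = 1 := by
      rw [← pow_mul, mul_comm r p]
      exact h5
    have h7 : frobenius E p (x ^ r) = frobenius E p 1 := by
      rw [frobenius_def, frobenius_def, h6, one_pow]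
    exact frobenius_inj E p h7
  have hcoeff : P.coeff 0 ≠ 0 := by
    intro h0
    have hz : P.IsRoot 0 := by
      rw [IsRoot, ← coeff_zero_eq_eval_zero]
      exact h0
    have h5 := hroot 0 hz
    rw [zero_pow hr.ne_zero] at h5
    exact zero_ne_one h5
  obtain ⟨c, hc, hrev⟩ := charpoly_unitary T φ hT
  have hPσ : P.map σ = C (ι c) * P.reverse := by
    have h5 : P.map σ = (T.charpoly.map φ).map ι := by
      rw [hPdef, Polynomial.map_map, Polynomial.map_map]
      congr 1
      ext x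
      simp [hσ, hφ]
    rw [h5, hrev, Polynomial.map_mul, Polynomial.map_C]
    congr 1
    rw [hPdef, reverse, reverse, natDegree_map, reflect_map]
  have hsymm : ∀ x : E, x ≠ 0 → P.rootMultiplicity x ≤ P.rootMultiplicity ((x ^ q)⁻¹) := by
    intro x hx
    have h5 := symm_mult P hcoeff σ (ι c) ((map_ne_zero ι).2 hc) hPσ x hx
    rwa [hσ] at h5
  have hF4 : ∃ x, 2 ≤ P.rootMultiplicity x := by
    by_contra hcon
    push_neg at hcon
    have hnodup : P.roots.Nodup := by
      rw [Multiset.nodup_iff_count_le_one]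
      intro a
      rw [count_roots]
      have := hcon a
      omega
    have hne : (X ^ r - C 1 : E[X]) ≠ 0 := X_pow_sub_C_ne_zero hr.pos 1
    have hle : P.roots ≤ (X ^ r - C 1 : E[X]).roots := by
      rw [Multiset.le_iff_subset hnodup]
      intro x hx
      rw [mem_roots hne, IsRoot, eval_sub, eval_pow, eval_X, eval_C,
        hroot x ((mem_roots hP).1 hx), sub_self]
    have hdvd : P ∣ X ^ r - C 1 := (IsAlgClosed.splits P).dvd_of_roots_le_roots hP hle
    have hdvdF : T.charpoly ∣ (X ^ r - C 1 : F[X]) := by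
      rw [← Polynomial.map_dvd_map' ι, ← hPdef]
      simpa using hdvd
    obtain ⟨Q, hQ⟩ := hdvdF
    have h5 := congrArg (aeval T) hQ
    rw [map_mul, Matrix.aeval_self_charpoly, zero_mul] at h5
    simp at h5
    exact h2 (sub_eq_zero.1 h5)
  have hF3 : ∃ x, x ≠ 1 ∧ P.IsRoot x := by
    by_contra hcon
    push_neg at hcon
    have hall : ∀ x ∈ P.roots, x = 1 := fun x hx => by
      by_contra hx1
      exact hcon x hx1 ((mem_roots hP).1 hx)
    have hle : P.roots ≤ ((X - C 1) ^ m : E[X]).roots := by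
      rw [roots_pow, roots_X_sub_C, Multiset.nsmul_singleton, Multiset.eq_replicate_card.2 hall]
      apply Multiset.replicate_le_replicate 1 |>.2
      rw [← hdeg]
      exact card_roots' P
    have hdvd : P ∣ (X - C 1) ^ m := (IsAlgClosed.splits P).dvd_of_roots_le_roots hP hle
    have hdvdF : T.charpoly ∣ ((X - C 1) ^ m : F[X]) := by
      rw [← Polynomial.map_dvd_map' ι, ← hPdef]
      simpa using hdvd
    obtain ⟨Q, hQ⟩ := hdvdF
    have h5 := congrArg (aeval T) hQ
    rw [map_mul, Matrix.aeval_self_charpoly, zero_mul] at h5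
    simp at h5
    rcases Nat.eq_zero_or_pos m with hm0 | hm0
    · subst hm0
      exact h3 (Subsingleton.elim _ _)
    · haveI : Nonempty (Fin m) := ⟨⟨0, hm0⟩⟩
      have h6 : (T - 1) ^ (p ^ m) = 0 := pow_eq_zero_of_le (Nat.lt_pow_self hp.one_lt).le h5
      rw [sub_pow_char_pow_of_commute p m (Commute.one_right T), one_pow, sub_eq_zero] at h6
      have h7 : orderOf T ∣ Nat.gcd (p ^ m) (p * r) :=
        Nat.dvd_gcd (orderOf_dvd_of_pow_eq_one h6) (orderOf_dvd_of_pow_eq_one h1)
      have hcop : Nat.Coprime r (p ^ m) :=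
        Nat.Coprime.pow_right m ((Nat.coprime_primes hr hp).2 hrp)
      rw [Nat.Coprime.gcd_mul_right_cancel_right p hcop] at h7
      have h8 : orderOf T ∣ p := dvd_trans h7 (Nat.gcd_dvd_right _ _)
      exact h3 (orderOf_dvd_iff_pow_eq_one.1 h8)
  exact count_main P m r q hdeg hr hrq hP hroot hsymm hF3 hF4 he

end Mat

end Cfsg.Agent.Lib.Helper39.UnitaryCharpoly
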