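-- Every element of SU_3(q), q odd, has a power N (one of four explicit numbers) that is scalar.
import Mathlib
import Cfsg.Prelude.Def_Classical
import Cfsg.Agent.Lib.Helper39.UnitaryCharpoly
import Cfsg.Agent.Lib.Helper39.PSU3Elts

set_option autoImplicit false

namespace Cfsg.Agent.Lib.Helper39.PSU3Up

open Polynomial
open Cfsg.Agent.Lib.Helper39.UnitaryCharpoly Cfsg.Agent.Lib.Helper39.PSU3Elts

section field

variable {K : Type*} [Field K]

theorem pow_eq_of_cycle (r s t : K) (q E N : ℕ) (hr : r ^ E = 1)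
    (hs : s * r ^ q = 1) (hrst : r * s * t = 1) (h1 : E ∣ (q + 1) * N) (h2 : E ∣ 3 * N) :
    s ^ N = r ^ N ∧ t ^ N = r ^ N := by
  have hr0 : r ≠ 0 := by
    rintro rfl
    simp at hrst
  have hA : r ^ ((q + 1) * N) = 1 := by
    obtain ⟨j, hj⟩ := h1
    rw [hj, pow_mul, hr, one_pow]
  have hB : r ^ (3 * N) = 1 := by
    obtain ⟨j, hj⟩ := h2
    rw [hj, pow_mul, hr, one_pow]
  have h3 : s ^ N * (r ^ N) ^ q = 1 := by
    rw [← pow_mul, mul_comm N q, pow_mul, ← mul_pow, hs, one_pow]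
  have h4 : r ^ N * (r ^ N) ^ q = 1 := by
    rw [← hA, ← pow_mul, ← pow_add]
    congr 1
    ring
  have h5 : s ^ N = r ^ N :=
    mul_right_cancel₀ (pow_ne_zero q (pow_ne_zero N hr0)) (h3.trans h4.symm)
  refine ⟨h5, ?_⟩
  have h6 : r ^ N * s ^ N * t ^ N = 1 := by
    rw [← mul_pow, ← mul_pow, hrst, one_pow]
  have h7 : r ^ N * r ^ N * r ^ N = 1 := by
    rw [← hB]
    ring
  rw [h5] at h6
  exact mul_left_cancel₀ (mul_ne_zero (pow_ne_zero N hr0) (pow_ne_zero N hr0)) (h6.trans h7.symm)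

theorem dvd_sq_sub_one (q : ℕ) (hq : 2 ≤ q) : Nat.gcd 3 (q + 1) ∣ q ^ 2 - 1 := by
  obtain ⟨r, rfl⟩ : ∃ r, q = r + 2 := ⟨q - 2, by omega⟩
  have h1 : (r + 2) ^ 2 - 1 = (r + 2 + 1) * (r + 1) := by
    have : (r + 2) ^ 2 = (r + 2 + 1) * (r + 1) + 1 := by ring
    omega
  rw [h1]
  exact Dvd.dvd.mul_right (Nat.gcd_dvd_right _ _) _

theorem dvd_sq_sub_add (q : ℕ) (hq : 2 ≤ q) : Nat.gcd 3 (q + 1) ∣ q ^ 2 - q + 1 := by
  obtain ⟨r, rfl⟩ : ∃ r, q = r + 2 := ⟨q - 2, by omega⟩
  have h1 : (r + 2) ^ 2 - (r + 2) + 1 = (r + 2 + 1) * r + 3 := by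
    have : (r + 2) ^ 2 = (r + 2 + 1) * r + 2 + (r + 2) := by ring
    omega
  rw [h1]
  exact dvd_add (Dvd.dvd.mul_right (Nat.gcd_dvd_right _ _) _) (Nat.gcd_dvd_left _ _)

/-- The structure of the root multiset of a cubic whose roots are stable under `x ↦ x^(-q)`. -/
theorem roots_analysis (P : K[X]) (q : ℕ) (hq : 2 ≤ q) (σ : K →+* K) (hσ : ∀ x, σ x = x ^ q)
    (hdeg : P.natDegree = 3) (hsplit : P.Splits) (hprod : P.roots.prod = 1)
    (hsymm : ∀ x : K, x ≠ 0 → P.rootMultiplicity x ≤ P.rootMultiplicity ((x ^ q)⁻¹)) :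
    (P.roots.Nodup ∧ ∃ (N : ℕ) (ω : K), (N = q + 1 ∨ N = (q ^ 2 - 1) / Nat.gcd 3 (q + 1) ∨
        N = (q ^ 2 - q + 1) / Nat.gcd 3 (q + 1)) ∧ ∀ r ∈ P.roots, r ^ N = ω) ∨
    (∃ ω : K, ∀ r ∈ P.roots, r ^ ((q + 1) / Nat.gcd 3 (q + 1)) = ω) := by
  classical
  have hP : P ≠ 0 := by
    rintro rfl
    simp at hdeg
  have hcard : Multiset.card P.roots = 3 := by
    rw [← hsplit.natDegree_eq_card_roots, hdeg]
  have hne : ∀ r ∈ P.roots, r ≠ 0 := by
    rintro r hr rfl
    rw [Multiset.prod_eq_zero hr] at hprod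
    exact zero_ne_one hprod
  have hτ : ∀ r ∈ P.roots, (r ^ q)⁻¹ ∈ P.roots := by
    intro r hr
    have h1 := hsymm r (hne r hr)
    rw [← count_roots, ← count_roots] at h1
    have h2 : 0 < Multiset.count r P.roots := Multiset.count_pos.2 hr
    exact Multiset.count_pos.1 (lt_of_lt_of_le h2 h1)
  have hinj : ∀ r s : K, (r ^ q)⁻¹ = (s ^ q)⁻¹ → r = s := by
    intro r s h
    have h1 : r ^ q = s ^ q := inv_injective h
    rw [← hσ, ← hσ] at h1
    exact σ.injective h1
  by_cases hnd : P.roots.Nodup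
  · left
    refine ⟨hnd, ?_⟩
    by_cases hfix : ∀ r ∈ P.roots, (r ^ q)⁻¹ = r
    · refine ⟨q + 1, 1, Or.inl rfl, ?_⟩
      intro r hr
      have h1 := hfix r hr
      have h2 : r ^ q ≠ 0 := pow_ne_zero _ (hne r hr)
      rw [pow_succ]
      nth_rewrite 2 [← h1]
      exact mul_inv_cancel₀ h2
    · push Not at hfix
      obtain ⟨r, hr, hrs⟩ := hfix
      obtain ⟨R', hR'⟩ := Multiset.exists_cons_of_mem hr
      have hs := hτ r hr
      have hs' : (r ^ q)⁻¹ ∈ R' := by
        rw [hR', Multiset.mem_cons] at hs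
        rcases hs with h | h
        · exact absurd h hrs
        · exact h
      obtain ⟨R'', hR''⟩ := Multiset.exists_cons_of_mem hs'
      have hc1 : Multiset.card R'' = 1 := by
        rw [hR', hR'', Multiset.card_cons, Multiset.card_cons] at hcard
        omega
      obtain ⟨t, ht⟩ := Multiset.card_eq_one.1 hc1
      obtain ⟨s, hsdef⟩ : ∃ s : K, s = (r ^ q)⁻¹ := ⟨_, rfl⟩
      rw [← hsdef] at hrs hs hs' hR''
      have hroots : P.roots = r ::ₘ s ::ₘ {t} := by rw [hR', hR'', ht]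
      have hr0 : r ≠ 0 := hne r hr
      have hs0 : s ≠ 0 := hne s hs
      have hmem : ∀ x ∈ P.roots, x = r ∨ x = s ∨ x = t := by
        intro x hx
        rw [hroots] at hx
        simpa using hx
      have hrst : r * s * t = 1 := by
        rw [hroots] at hprod
        simp only [Multiset.prod_cons, Multiset.prod_singleton] at hprod
        rw [← hprod]
        ring
      have hsr : s * r ^ q = 1 := by
        rw [hsdef]
        exact inv_mul_cancel₀ (pow_ne_zero _ hr0)
      have hsrq : s ^ q * (r ^ q) ^ q = 1 := by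
        rw [← mul_pow, hsr, one_pow]
      have hts : (s ^ q)⁻¹ = r ∨ (s ^ q)⁻¹ = t := by
        rcases hmem _ (hτ s hs) with h | h | h
        · exact Or.inl h
        · exfalso
          apply hrs
          apply hinj
          rw [h, hsdef]
        · exact Or.inr h
      have hfin : ∀ (E : ℕ), r ^ E = 1 → Nat.gcd 3 (q + 1) ∣ E →
          ∀ x ∈ P.roots, x ^ (E / Nat.gcd 3 (q + 1)) = r ^ (E / Nat.gcd 3 (q + 1)) := by
        intro E hE hd x hx
        have h1 := (nt E (q + 1) (E / Nat.gcd 3 (q + 1)) hd).2 dvd_rfl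
        have h2 := pow_eq_of_cycle r s t q E _ hE hsr hrst h1.1 h1.2
        rcases hmem x hx with h | h | h
        · rw [h]
        · rw [h, h2.1]
        · rw [h, h2.2]
      rcases hts with h | h
      · -- 2-cycle
        have h1 : r * s ^ q = 1 := by
          rw [← h]
          exact inv_mul_cancel₀ (pow_ne_zero _ hs0)
        have h2 : r ^ (q ^ 2) = r := by
          calc r ^ (q ^ 2) = (r ^ q) ^ q := by rw [← pow_mul, sq]
            _ = (r * s ^ q) * (r ^ q) ^ q := by rw [h1, one_mul]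
            _ = r * (s ^ q * (r ^ q) ^ q) := by ring
            _ = r := by rw [hsrq, mul_one]
        have h3 : r ^ (q ^ 2 - 1) = 1 := by
          have h4 : r ^ (q ^ 2 - 1) * r = 1 * r := by
            rw [← pow_succ, Nat.sub_add_cancel (Nat.one_le_pow _ _ (by omega)), h2, one_mul]
          exact mul_right_cancel₀ hr0 h4
        exact ⟨_, _, Or.inr (Or.inl rfl), hfin _ h3 (dvd_sq_sub_one q hq)⟩
      · -- 3-cycle
        have h1 : t * s ^ q = 1 := by
          rw [← h]
          exact inv_mul_cancel₀ (pow_ne_zero _ hs0)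
        have h2 : t = (r ^ q) ^ q := by
          calc t = t * (s ^ q * (r ^ q) ^ q) := by rw [hsrq, mul_one]
            _ = (t * s ^ q) * (r ^ q) ^ q := by ring
            _ = (r ^ q) ^ q := by rw [h1, one_mul]
        have h3 : r ^ (q ^ 2 - q + 1) = 1 := by
          have h4 : r ^ (q ^ 2 - q + 1) * r ^ q = 1 * r ^ q := by
            rw [← pow_add]
            have h5 : q ^ 2 - q + 1 + q = q ^ 2 + 1 := by
              have : q ≤ q ^ 2 := by nlinarith
              omega
            rw [h5, pow_succ, sq, pow_mul, ← h2, one_mul]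
            calc t * r = (r * s * t) * r ^ q - (s * r ^ q - 1) * (r * t) := by ring
              _ = r ^ q := by rw [hrst, hsr]; ring
          exact mul_right_cancel₀ (pow_ne_zero _ hr0) h4
        exact ⟨_, _, Or.inr (Or.inr rfl), hfin _ h3 (dvd_sq_sub_add q hq)⟩
  · right
    rw [Multiset.nodup_iff_count_le_one] at hnd
    push Not at hnd
    obtain ⟨a, ha⟩ := hnd
    have ha_mem : a ∈ P.roots := Multiset.count_pos.1 (by omega)
    have ha0 : a ≠ 0 := hne a ha_mem
    have hfix : (a ^ q)⁻¹ = a := by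
      by_contra hcon
      have h1 := hsymm a ha0
      rw [count_roots] at ha
      have h2 := sum_rootMultiplicity_le P {a, (a ^ q)⁻¹}
      rw [Finset.sum_pair (Ne.symm hcon), hdeg] at h2
      omega
    obtain ⟨R', hR'⟩ := Multiset.exists_cons_of_mem ha_mem
    have ha' : a ∈ R' := by
      rw [hR', Multiset.count_cons_self] at ha
      exact Multiset.count_pos.1 (by omega)
    obtain ⟨R'', hR''⟩ := Multiset.exists_cons_of_mem ha'
    have hc1 : Multiset.card R'' = 1 := by
      rw [hR', hR'', Multiset.card_cons, Multiset.card_cons] at hcard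
      omega
    obtain ⟨b, hb⟩ := Multiset.card_eq_one.1 hc1
    have hroots : P.roots = a ::ₘ a ::ₘ {b} := by rw [hR', hR'', hb]
    have hmem : ∀ x ∈ P.roots, x = a ∨ x = b := by
      intro x hx
      rw [hroots] at hx
      simpa using hx
    have haab : a * a * b = 1 := by
      rw [hroots] at hprod
      simp only [Multiset.prod_cons, Multiset.prod_singleton] at hprod
      rw [← hprod]
      ring
    have haq : a * a ^ q = 1 := by
      nth_rewrite 1 [← hfix]
      exact inv_mul_cancel₀ (pow_ne_zero _ ha0)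
    have haE : a ^ (q + 1) = 1 := by
      rw [pow_succ, mul_comm]
      exact haq
    have h1 := (nt (q + 1) (q + 1) ((q + 1) / Nat.gcd 3 (q + 1)) (Nat.gcd_dvd_right _ _)).2 dvd_rfl
    have h2 := pow_eq_of_cycle a a b q (q + 1) _ haE haq haab h1.1 h1.2
    refine ⟨a ^ ((q + 1) / Nat.gcd 3 (q + 1)), ?_⟩
    intro x hx
    rcases hmem x hx with h | h
    · rw [h]
    · rw [h, h2.2]

end field

section mat

variable {K : Type*} [Field K]

theorem aeval_pow_sub (A : Matrix (Fin 3) (Fin 3) K) (N : ℕ) (ω : K) :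
    aeval A (X ^ N - C ω : K[X]) = A ^ N - ω • (1 : Matrix (Fin 3) (Fin 3) K) := by
  rw [map_sub, map_pow, aeval_X, aeval_C, Algebra.algebraMap_eq_smul_one]

/-- distinct eigenvalues with a common `N`-th power: the `N`-th power is scalar -/
theorem pow_scalar_of_roots [IsAlgClosed K] (A : Matrix (Fin 3) (Fin 3) K) (N : ℕ) (hN : 0 < N)
    (ω : K) (hnd : A.charpoly.roots.Nodup) (h : ∀ r ∈ A.charpoly.roots, r ^ N = ω) :
    A ^ N = ω • (1 : Matrix (Fin 3) (Fin 3) K) := by
  have hP : A.charpoly ≠ 0 := (Matrix.charpoly_monic A).ne_zero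
  have hne : (X ^ N - C ω : K[X]) ≠ 0 := X_pow_sub_C_ne_zero hN ω
  have hle : A.charpoly.roots ≤ (X ^ N - C ω : K[X]).roots := by
    rw [Multiset.le_iff_subset hnd]
    intro x hx
    rw [mem_roots hne, IsRoot, eval_sub, eval_pow, eval_X, eval_C, h x hx, sub_self]
  obtain ⟨Q, hQ⟩ := (IsAlgClosed.splits A.charpoly).dvd_of_roots_le_roots hP hle
  have h5 := congrArg (aeval A) hQ
  rw [map_mul, Matrix.aeval_self_charpoly, zero_mul, aeval_pow_sub] at h5
  exact sub_eq_zero.1 h5

/-- eigenvalues with a common `N`-th power: the `N`-th power is scalar plus nilpotent -/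
theorem pow_nilp_of_roots [IsAlgClosed K] (A : Matrix (Fin 3) (Fin 3) K) (N : ℕ)
    (ω : K) (h : ∀ r ∈ A.charpoly.roots, r ^ N = ω) :
    (A ^ N - ω • (1 : Matrix (Fin 3) (Fin 3) K)) ^ 3 = 0 := by
  have hcard : Multiset.card A.charpoly.roots = 3 := by
    rw [← (IsAlgClosed.splits A.charpoly).natDegree_eq_card_roots,
      Matrix.charpoly_natDegree_eq_dim, Fintype.card_fin]
  have h1 : A.charpoly = (A.charpoly.roots.map (X - C ·)).prod :=
    (IsAlgClosed.splits A.charpoly).eq_prod_roots_of_monic (Matrix.charpoly_monic A)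
  have h2 : (A.charpoly.roots.map (X - C ·)).prod ∣
      (A.charpoly.roots.map (fun _ => (X ^ N - C ω : K[X]))).prod := by
    apply Multiset.prod_dvd_prod_of_dvd
    intro r hr
    rw [dvd_iff_isRoot, IsRoot, eval_sub, eval_pow, eval_X, eval_C, h r hr, sub_self]
  rw [← h1, Multiset.map_const', Multiset.prod_replicate, hcard] at h2
  obtain ⟨Q, hQ⟩ := h2
  have h5 := congrArg (aeval A) hQ
  rw [map_mul, Matrix.aeval_self_charpoly, zero_mul, map_pow, aeval_pow_sub] at h5
  exact h5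

theorem descend {F : Type*} [Field F] (ι : F →+* K) (T : Matrix (Fin 3) (Fin 3) F) (N : ℕ) (ω : K)
    (h : (T.map ι) ^ N = ω • (1 : Matrix (Fin 3) (Fin 3) K)) :
    ∃ c : F, T ^ N = c • (1 : Matrix (Fin 3) (Fin 3) F) := by
  have h1 : (T ^ N).map ι = ω • (1 : Matrix (Fin 3) (Fin 3) K) := by
    rw [← h]
    exact map_pow ι.mapMatrix T N
  refine ⟨(T ^ N) 0 0, ?_⟩
  ext i j
  have h2 := congrFun (congrFun h1 i) j
  have h3 := congrFun (congrFun h1 0) 0
  simp only [Matrix.map_apply, Matrix.smul_apply, Matrix.one_apply, smul_eq_mul] at h2 h3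
  simp only [Matrix.smul_apply, Matrix.one_apply, smul_eq_mul]
  by_cases hij : i = j
  · subst hij
    simp only [if_true, mul_one] at h2 h3 ⊢
    exact ι.injective (h2.trans h3.symm)
  · simp only [if_neg hij, mul_zero] at h2 ⊢
    exact ι.injective (h2.trans (map_zero ι).symm)

end mat

section main

/-- Every unitary `3 × 3` matrix of determinant one over `F_{q^2}`, `q` odd, has a scalar power
with exponent one of the four numbers `q+1`, `p(q+1)/d`, `(q^2-1)/d`, `(q^2-q+1)/d`. -/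
theorem exists_pow_scalar {F : Type*} [Field F] [Fintype F] (p : ℕ) [Fact p.Prime] [CharP F p]
    (hp2 : p ≠ 2) {q : ℕ} (hF : Fintype.card F = q ^ 2) (φ : F →+* F) (hφ : ∀ x, φ x = x ^ q)
    (T : Matrix (Fin 3) (Fin 3) F) (hdet : T.det = 1) (hT : T.transpose * T.map φ = 1) :
    ∃ N : ℕ, (N = q + 1 ∨ N = p * (q + 1) / Nat.gcd 3 (q + 1) ∨
      N = (q ^ 2 - 1) / Nat.gcd 3 (q + 1) ∨ N = (q ^ 2 - q + 1) / Nat.gcd 3 (q + 1)) ∧
      ∃ c : F, T ^ N = c • (1 : Matrix (Fin 3) (Fin 3) F) := by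
  classical
  have hp : p.Prime := Fact.out
  have hq := q_ge hF
  have hdpos : 0 < Nat.gcd 3 (q + 1) := Nat.gcd_pos_of_pos_left _ (by norm_num)
  obtain ⟨k, hk⟩ : ∃ k, q = p ^ k := by
    obtain ⟨n, -, hn⟩ := FiniteField.card F p
    have hdvd : q ∣ p ^ (n : ℕ) := by
      rw [← hn, hF]
      exact dvd_pow_self q (by norm_num)
    obtain ⟨k, -, hk⟩ := (Nat.dvd_prime_pow hp).mp hdvd
    exact ⟨k, hk⟩
  obtain ⟨E, _, _, _, _⟩ : ∃ (E : Type _) (_ : Field E) (_ : Algebra F E) (_ : IsAlgClosed E),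
      True := ⟨AlgebraicClosure F, inferInstance, inferInstance, inferInstance, trivial⟩
  have : CharP E p := charP_of_injective_algebraMap (algebraMap F E).injective p
  obtain ⟨ι, hι⟩ : ∃ ι : F →+* E, ι = algebraMap F E := ⟨_, rfl⟩
  obtain ⟨σ, hσ⟩ : ∃ σ : E →+* E, ∀ x : E, σ x = x ^ q :=
    ⟨iterateFrobenius E p k, fun x => by rw [hk]; rfl⟩
  obtain ⟨P, hPdef⟩ : ∃ P : E[X], P = T.charpoly.map ι := ⟨_, rfl⟩
  have hPchar : P = (T.map ι).charpoly := by
    rw [hPdef, Matrix.charpoly_map]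
  have hdetE : (T.map ι).det = 1 := by
    have h5 : T.map ι = ι.mapMatrix T := rfl
    rw [h5, ← RingHom.map_det, hdet, map_one]
  have hdeg : P.natDegree = 3 := by
    rw [hPchar, Matrix.charpoly_natDegree_eq_dim, Fintype.card_fin]
  have hprod : P.roots.prod = 1 := by
    rw [hPchar, ← Matrix.det_eq_prod_roots_charpoly, hdetE]
  have hcoeff : P.coeff 0 ≠ 0 := by
    intro h0
    have h1 := Matrix.det_eq_sign_charpoly_coeff (T.map ι)
    rw [← hPchar, h0, mul_zero, hdetE] at h1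
    exact one_ne_zero h1
  obtain ⟨c, hc, hrev⟩ := charpoly_unitary T φ hT
  have hPσ : P.map σ = C (ι c) * P.reverse := by
    have h5 : P.map σ = (T.charpoly.map φ).map ι := by
      rw [hPdef, Polynomial.map_map, Polynomial.map_map]
      congr 1
      ext x
      simp [hσ, hφ]
    rw [h5, hrev, Polynomial.map_mul, Polynomial.map_C]
    congr 1
    rw [hPdef, reverse, reverse, natDegree_map, reflect_map]
  have hsymm : ∀ x : E, x ≠ 0 → P.rootMultiplicity x ≤ P.rootMultiplicity ((x ^ q)⁻¹) := by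
    intro x hx
    have h5 := symm_mult P hcoeff σ (ι c) ((map_ne_zero ι).2 hc) hPσ x hx
    rwa [hσ] at h5
  rcases roots_analysis P q hq σ hσ hdeg (IsAlgClosed.splits P) hprod hsymm with
    ⟨hnd, N, ω, hN, hroots⟩ | ⟨ω, hroots⟩
  · rw [hPchar] at hnd hroots
    have hNpos : 0 < N := by
      rcases hN with h | h | h
      · omega
      · rw [h]
        refine Nat.div_pos (Nat.le_of_dvd ?_ (dvd_sq_sub_one q hq)) hdpos
        have : 4 ≤ q ^ 2 := by nlinarith
        omega
      · rw [h]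
        exact Nat.div_pos (Nat.le_of_dvd (by omega) (dvd_sq_sub_add q hq)) hdpos
    have h1 := pow_scalar_of_roots (T.map ι) N hNpos ω hnd hroots
    refine ⟨N, ?_, descend ι T N ω h1⟩
    rcases hN with h | h | h
    · exact Or.inl h
    · exact Or.inr (Or.inr (Or.inl h))
    · exact Or.inr (Or.inr (Or.inr h))
  · rw [hPchar] at hroots
    have h1 := pow_nilp_of_roots (T.map ι) _ ω hroots
    have hp3 : 3 ≤ p := by
      have := hp.two_le
      omega
    have h2 : (T.map ι ^ ((q + 1) / Nat.gcd 3 (q + 1)) -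
        ω • (1 : Matrix (Fin 3) (Fin 3) E)) ^ p = 0 := pow_eq_zero_of_le hp3 h1
    rw [sub_pow_char_of_commute p (Commute.smul_right (Commute.one_right _) ω), sub_eq_zero,
      _root_.smul_pow, one_pow] at h2
    refine ⟨p * (q + 1) / Nat.gcd 3 (q + 1), Or.inr (Or.inl rfl), ?_⟩
    rw [Nat.mul_div_assoc p (Nat.gcd_dvd_right 3 (q + 1))]
    apply descend ι T _ (ω ^ p)
    rw [mul_comm, pow_mul]
    exact h2

end main

end Cfsg.Agent.Lib.Helper39.PSU3Up
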