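-- Primes dividing orders of elements commuting with an element of order p in PSU_m(q).
import Mathlib
import Cfsg.Agent.Lib.Helper39.UnitaryCharpoly
import Cfsg.Agent.Lib.Helper45.SUCard
import Cfsg.Agent.S0279

set_option autoImplicit false

namespace Cfsg.Agent.Lib.Helper39.PSUCent

open Cfsg.Agent.Lib.Helper45.GUCard Cfsg.Agent.Lib.Helper45.SUCard

section Card

variable {F : Type*} [Field F] [Fintype F] {q : ℕ} (hF : Fintype.card F = q ^ 2)

include hF in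
theorem card_SU_eq (n : ℕ) (hn : 2 ≤ n) :
    ∃ A : ℕ, Nat.card ↥(Cfsg.SU n F q) = q ^ (n * (n - 1) / 2) * A * (q ^ 2 - 1) := by
  obtain ⟨k, rfl⟩ : ∃ k, n = k + 2 := ⟨n - 2, by omega⟩
  have h1 := card_GU_eq hF (k + 2) (by omega)
  have h2 := card_GU hF (k + 2)
  rw [h2, Finset.prod_range_succ', Finset.prod_range_succ'] at h1
  have hf0 : (if Even 0 then q ^ (0 + 1) + 1 else q ^ (0 + 1) - 1) = q + 1 := by simp
  have hf1 : (if Even (0 + 1) then q ^ (0 + 1 + 1) + 1 else q ^ (0 + 1 + 1) - 1) = q ^ 2 - 1 := by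
    simp
  rw [hf0, hf1] at h1
  refine ⟨∏ i ∈ Finset.range k,
    (if Even (i + 1 + 1) then q ^ (i + 1 + 1 + 1) + 1 else q ^ (i + 1 + 1 + 1) - 1),
    Nat.eq_of_mul_eq_mul_left (show 0 < q + 1 by omega) ?_⟩
  rw [← h1]
  generalize (∏ i ∈ Finset.range k,
    (if Even (i + 1 + 1) then q ^ (i + 1 + 1 + 1) + 1 else q ^ (i + 1 + 1 + 1) - 1)) = A
  generalize q ^ ((k + 2) * (k + 2 - 1) / 2) = X
  generalize q ^ 2 - 1 = D
  ring

include hF in
theorem dvd_card_SU_of_dvd_q (n : ℕ) (hn : 2 ≤ n) (r : ℕ) (h : r ∣ q) :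
    r ∣ Nat.card ↥(Cfsg.SU n F q) := by
  obtain ⟨A, hA⟩ := card_SU_eq hF n hn
  rw [hA]
  have h1 : n * (n - 1) / 2 ≠ 0 := by
    obtain ⟨k, rfl⟩ : ∃ k, n = k + 2 := ⟨n - 2, by omega⟩
    have h2 : 2 ≤ (k + 2) * (k + 2 - 1) := by
      have : k + 2 - 1 = k + 1 := by omega
      rw [this]
      nlinarith
    have h3 : 1 ≤ (k + 2) * (k + 2 - 1) / 2 := (Nat.le_div_iff_mul_le (by norm_num)).2 (by omega)
    omega
  exact Dvd.dvd.mul_right (Dvd.dvd.mul_right (dvd_trans h (dvd_pow_self q h1)) _) _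

include hF in
theorem dvd_card_SU_of_dvd_succ (n : ℕ) (hn : 2 ≤ n) (r : ℕ) (h : r ∣ q + 1) :
    r ∣ Nat.card ↥(Cfsg.SU n F q) := by
  obtain ⟨A, hA⟩ := card_SU_eq hF n hn
  rw [hA]
  have h1 : q + 1 ∣ q ^ 2 - 1 := by
    rcases Nat.eq_zero_or_pos q with h0 | h0
    · subst h0
      simp
    · obtain ⟨k, rfl⟩ : ∃ k, q = k + 1 := ⟨q - 1, by omega⟩
      refine ⟨k, ?_⟩
      have : (k + 1) ^ 2 = (k + 1 + 1) * k + 1 := by ring
      omega
  exact Dvd.dvd.mul_left (dvd_trans h h1) _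

include hF in
theorem dvd_of_factor (n : ℕ) (e : ℕ) (he1 : 1 ≤ e) (hen : e ≤ n) (r : ℕ)
    (hr : r.Prime) (hr1 : ¬ r ∣ q + 1)
    (h : r ∣ (if Even (e - 1) then q ^ e + 1 else q ^ e - 1)) :
    r ∣ Nat.card ↥(Cfsg.SU n F q) := by
  have h1 := card_GU_eq hF n (by omega)
  have h2 := card_GU hF n
  have h3 : (if Even (e - 1) then q ^ (e - 1 + 1) + 1 else q ^ (e - 1 + 1) - 1) ∣
      ∏ i ∈ Finset.range n, (if Even i then q ^ (i + 1) + 1 else q ^ (i + 1) - 1) :=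
    Finset.dvd_prod_of_mem (fun i => if Even i then q ^ (i + 1) + 1 else q ^ (i + 1) - 1)
      (Finset.mem_range.2 (by omega))
  rw [Nat.sub_add_cancel he1] at h3
  have h4 : r ∣ (q + 1) * Nat.card ↥(Cfsg.SU n F q) := by
    rw [← h1, h2]
    exact Dvd.dvd.mul_left (dvd_trans h h3) _
  rcases (Nat.Prime.dvd_mul hr).1 h4 with h5 | h5
  · exact absurd h5 hr1
  · exact h5

end Card

/-- In `PSU_m(q)`, `m ≥ 4`: every prime dividing the order of an element commuting with an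
element of order `p` (the characteristic) divides `|SU_{m-2}(q)|`. -/
theorem main {F : Type*} [Field F] [Fintype F] (p : ℕ) [Fact p.Prime] [CharP F p] (m q : ℕ)
    (hm : 4 ≤ m) (hF : Fintype.card F = q ^ 2)
    (a b : Cfsg.PSU m F q) (ha : orderOf a = p) (hab : Commute a b) :
    (orderOf b).primeFactors ⊆ (Nat.card ↥(Cfsg.SU (m - 2) F q)).primeFactors := by
  classical
  have hp : p.Prime := Fact.out
  intro r hr
  rw [Nat.mem_primeFactors] at hr ⊢
  obtain ⟨hrp, hrb, hb0⟩ := hr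
  refine ⟨hrp, ?_, Nat.card_pos.ne'⟩
  obtain ⟨n, hn⟩ : ∃ n : ℕ, Fintype.card F = p ^ n := by
    obtain ⟨n, _, hn⟩ := FiniteField.card F p
    exact ⟨n, hn⟩
  obtain ⟨j, hj⟩ : ∃ j, q = p ^ j := by
    have h1 : q ∣ p ^ n := by
      rw [← hn, hF]
      exact dvd_pow_self q two_ne_zero
    obtain ⟨j, _, hj⟩ := (Nat.dvd_prime_pow hp).1 h1
    exact ⟨j, hj⟩
  have hq2 := Cfsg.Agent.Lib.Helper5.HermCount.two_le hF
  have hpq : p ∣ q := by
    rw [hj]
    apply dvd_pow_self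
    rintro rfl
    rw [hj] at hq2
    simp at hq2
  by_cases hrp' : r = p
  · rw [hrp']
    exact dvd_card_SU_of_dvd_q hF (m - 2) (by omega) p hpq
  by_cases hr1 : r ∣ q + 1
  · exact dvd_card_SU_of_dvd_succ hF (m - 2) (by omega) r hr1
  haveI : Fact r.Prime := ⟨hrp⟩
  have hrq : ¬ r ∣ q := by
    rw [hj]
    intro h
    exact hrp' ((Nat.prime_dvd_prime_iff_eq hrp hp).1 (hrp.dvd_of_dvd_pow h))
  have hq0 : (q : ZMod r) ≠ 0 := by
    rw [Ne, ZMod.natCast_eq_zero_iff]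
    exact hrq
  have hfin : (-(q : ZMod r)) ^ (r - 1) = 1 := ZMod.pow_card_sub_one_eq_one (neg_ne_zero.2 hq0)
  have he0 : 0 < orderOf (-(q : ZMod r)) :=
    orderOf_pos_iff.2 (isOfFinOrder_iff_pow_eq_one.2
      ⟨r - 1, by have := hrp.two_le; omega, hfin⟩)
  have he1 : orderOf (-(q : ZMod r)) ≠ 1 := by
    rw [Ne, orderOf_eq_one_iff]
    intro h
    apply hr1
    rw [← ZMod.natCast_eq_zero_iff]
    push_cast
    linear_combination -h
  have he : 2 ≤ orderOf (-(q : ZMod r)) := by omega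
  obtain ⟨b', hb'⟩ : ∃ b' : Cfsg.PSU m F q, b' = b ^ (orderOf b / r) := ⟨_, rfl⟩
  have hb'r : b' ^ r = 1 := by
    rw [hb', ← pow_mul, Nat.div_mul_cancel hrb, pow_orderOf_eq_one]
  have hb'o : orderOf b' = r := by
    rw [hb']
    exact orderOf_pow_orderOf_div hb0 hrb
  have hcomm : Commute a b' := by
    rw [hb']
    exact hab.pow_right _
  have hap : a ^ p = 1 := by
    rw [← ha, pow_orderOf_eq_one]
  obtain ⟨t, ht⟩ := QuotientGroup.mk_surjective (a * b')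
  obtain ⟨φ, hφ, hinv⟩ := exists_conj hF
  have hcenter : t ^ (p * r) ∈ Subgroup.center ↥(Cfsg.SU m F q) := by
    rw [← QuotientGroup.eq_one_iff, QuotientGroup.mk_pow, ht, hcomm.mul_pow, pow_mul, hap, one_pow,
      one_mul, mul_comm p r, pow_mul, hb'r, one_pow]
  have hz : (t ^ (p * r)) ^ (q + 1) = 1 := by
    have hcard := Cfsg.Agent.S0279.result hF m (by omega)
    have h1 : (⟨t ^ (p * r), hcenter⟩ : Subgroup.center ↥(Cfsg.SU m F q)) ^
        (Nat.gcd m (q + 1)) = 1 := by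
      rw [← hcard]
      exact pow_card_eq_one'
    have h2 : (t ^ (p * r)) ^ (Nat.gcd m (q + 1)) = 1 := congrArg Subtype.val h1
    obtain ⟨d, hd⟩ := Nat.gcd_dvd_right m (q + 1)
    rw [hd, pow_mul, h2, one_pow]
  obtain ⟨T₀, hT₀⟩ : ∃ T₀ : ↥(Cfsg.SU m F q), T₀ = t ^ (q + 1) := ⟨_, rfl⟩
  have hT1 : T₀ ^ (p * r) = 1 := by
    rw [hT₀, ← pow_mul, mul_comm, pow_mul]
    exact hz
  have hmk : (QuotientGroup.mk T₀ : Cfsg.PSU m F q) = (a * b') ^ (q + 1) := by
    rw [hT₀, QuotientGroup.mk_pow, ht]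
  have hT2 : T₀ ^ r ≠ 1 := by
    intro h
    have h1 : ((a * b') ^ (q + 1)) ^ r = 1 := by
      rw [← hmk, ← QuotientGroup.mk_pow, h]
      rfl
    rw [← pow_mul, hcomm.mul_pow, mul_comm (q + 1) r, pow_mul b', hb'r, one_pow, mul_one] at h1
    have h2 : p ∣ r * (q + 1) := by
      rw [← ha]
      exact orderOf_dvd_of_pow_eq_one h1
    rcases (Nat.Prime.dvd_mul hp).1 h2 with h3 | h3
    · exact hrp' ((Nat.prime_dvd_prime_iff_eq hp hrp).1 h3).symm
    · have h4 : p ∣ 1 := (Nat.dvd_add_right hpq).1 h3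
      exact hp.one_lt.ne' (Nat.dvd_one.1 h4)
  have hT3 : T₀ ^ p ≠ 1 := by
    intro h
    have h1 : ((a * b') ^ (q + 1)) ^ p = 1 := by
      rw [← hmk, ← QuotientGroup.mk_pow, h]
      rfl
    rw [← pow_mul, hcomm.mul_pow, mul_comm (q + 1) p, pow_mul a, hap, one_pow, one_mul] at h1
    have h2 : r ∣ p * (q + 1) := by
      rw [← hb'o]
      exact orderOf_dvd_of_pow_eq_one h1
    rcases (Nat.Prime.dvd_mul hrp).1 h2 with h3 | h3
    · exact hrp' ((Nat.prime_dvd_prime_iff_eq hrp hp).1 h3)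
    · exact hr1 h3
  obtain ⟨Tm, hTm⟩ : ∃ Tm : Matrix (Fin m) (Fin m) F,
      Tm = ((T₀ : Matrix.SpecialLinearGroup (Fin m) F) : Matrix (Fin m) (Fin m) F) := ⟨_, rfl⟩
  have hpow : ∀ k : ℕ, (((T₀ ^ k : ↥(Cfsg.SU m F q)) : Matrix.SpecialLinearGroup (Fin m) F) :
      Matrix (Fin m) (Fin m) F) = Tm ^ k := by
    intro k
    rw [hTm]
    simp
  have hone : ∀ k : ℕ, Tm ^ k = 1 → T₀ ^ k = 1 := by
    intro k hk
    apply Subtype.ext
    apply Subtype.ext
    rw [hpow k, hk]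
    rfl
  have hTu : Tm.transpose * Tm.map φ = 1 := by
    rw [hTm]
    exact transpose_mul_map φ hφ _ (fun u v => T₀.2 u v)
  have hmain := Cfsg.Agent.Lib.Helper39.UnitaryCharpoly.main p r q m j hrp hrp' hj φ hφ Tm hTu
    (by rw [← hpow, hT1]; rfl) (fun h => hT2 (hone r h)) (fun h => hT3 (hone p h)) he
  obtain ⟨e, hedef⟩ : ∃ e, e = orderOf (-(q : ZMod r)) := ⟨_, rfl⟩
  rw [← hedef] at hmain he
  have hpe : (-(q : ZMod r)) ^ e = 1 := by
    rw [hedef]
    exact pow_orderOf_eq_one _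
  apply dvd_of_factor hF (m - 2) e (by omega) (by omega) r hrp hr1
  split_ifs with hev
  · have hodd : Odd e := by
      have h1 : e = (e - 1) + 1 := by omega
      rw [h1]
      exact hev.add_one
    rw [hodd.neg_pow] at hpe
    rw [← ZMod.natCast_eq_zero_iff]
    push_cast
    linear_combination -hpe
  · have heven : Even e := by
      have h1 : e = (e - 1) + 1 := by omega
      rw [h1, Nat.even_add_one]
      exact hev
    rw [heven.neg_pow] at hpe
    rw [← ZMod.natCast_eq_zero_iff, Nat.cast_sub (Nat.one_le_pow _ _ (by omega))]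
    push_cast
    linear_combination hpe

end Cfsg.Agent.Lib.Helper39.PSUCent
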