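import Mathlib
import Cfsg.Agent.Lib.Helper40.SFStmt

set_option autoImplicit false

/-!
# Piece FIELD of S5664

`[L : F]` prime, `Λ` an `F`-subspace with `2 ≤ dim Λ ≤ [L : F] - 1`: some `x₀ ∈ Λ \ 0` and
`x₁, x₂ ∈ Λ` have `x₁ x₂ ∉ x₀ Λ`.
-/

namespace Cfsg.Agent.Lib.Helper39.SFFIELD

universe u

theorem main : Cfsg.Agent.Lib.Helper40.SFStmt.FieldLem.{u} := by
  intro F L _ _ _ hp Λ h2 hlt
  by_contra hcon
  push Not at hcon
  have hfin : Module.Finite F L := Module.finite_of_finrank_pos hp.pos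
  obtain ⟨x₀, hx₀, hx₀ne⟩ : ∃ x₀ ∈ Λ, x₀ ≠ 0 := by
    by_contra h
    push Not at h
    have hb : Λ = ⊥ := by
      rw [eq_bot_iff]
      intro x hx
      exact (Submodule.mem_bot F).mpr (h x hx)
    rw [hb, finrank_bot] at h2
    omega
  -- the subalgebra `x₀⁻¹ Λ`
  let A : Subalgebra F L :=
    { carrier := {z | x₀ * z ∈ Λ}
      mul_mem' := by
        intro z₁ z₂ h1 h2
        obtain ⟨y, hy, hyeq⟩ := hcon x₀ hx₀ hx₀ne (x₀ * z₁) h1 (x₀ * z₂) h2
        have h3 : x₀ * (z₁ * z₂) = y := by
          apply mul_left_cancel₀ hx₀ne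
          rw [← hyeq]
          ring
        show x₀ * (z₁ * z₂) ∈ Λ
        rw [h3]
        exact hy
      one_mem' := by
        show x₀ * 1 ∈ Λ
        rw [mul_one]
        exact hx₀
      add_mem' := by
        intro z₁ z₂ h1 h2
        show x₀ * (z₁ + z₂) ∈ Λ
        rw [mul_add]
        exact Λ.add_mem h1 h2
      zero_mem' := by
        show x₀ * 0 ∈ Λ
        rw [mul_zero]
        exact Λ.zero_mem
      algebraMap_mem' := by
        intro c
        show x₀ * algebraMap F L c ∈ Λ
        have : x₀ * algebraMap F L c = c • x₀ := by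
          rw [Algebra.smul_def, mul_comm]
        rw [this]
        exact Λ.smul_mem c hx₀ }
  have hA : ∀ z : L, z ∈ A ↔ x₀ * z ∈ Λ := fun z => Iff.rfl
  have hsimple : IsSimpleOrder (IntermediateField F L) :=
    IntermediateField.isSimpleOrder_of_finrank_prime F L hp
  let K : IntermediateField F L := subalgebraEquivIntermediateField A
  have hK : ∀ z : L, z ∈ K ↔ x₀ * z ∈ Λ := fun z => Iff.rfl
  rcases eq_bot_or_eq_top K with hbot | htop
  · -- `Λ ≤ F x₀`
    have hle : Λ ≤ Submodule.span F {x₀} := by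
      intro y hy
      have h1 : x₀⁻¹ * y ∈ K := by
        rw [hK, ← mul_assoc, mul_inv_cancel₀ hx₀ne, one_mul]
        exact hy
      rw [hbot, IntermediateField.mem_bot] at h1
      obtain ⟨c, hc⟩ := h1
      rw [Submodule.mem_span_singleton]
      refine ⟨c, ?_⟩
      rw [Algebra.smul_def, hc, mul_comm, ← mul_assoc, mul_inv_cancel₀ hx₀ne, one_mul]
    have h3 := Submodule.finrank_mono hle
    have h4 : Module.finrank F (Submodule.span F {x₀}) ≤ 1 := by
      have := finrank_span_le_card (R := F) ({x₀} : Set L)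
      simpa using this
    omega
  · have htopΛ : Λ = ⊤ := by
      rw [eq_top_iff]
      intro y _
      have h1 : x₀⁻¹ * y ∈ K := by
        rw [htop]
        exact IntermediateField.mem_top
      rw [hK, ← mul_assoc, mul_inv_cancel₀ hx₀ne, one_mul] at h1
      exact h1
    rw [htopΛ, finrank_top] at hlt
    omega

end Cfsg.Agent.Lib.Helper39.SFFIELD
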