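-- Counting irreducible characters of SL_2(q), q odd, by their unipotent multiplicities.
import Mathlib
import Cfsg.Prelude.Def_Characters
import Cfsg.Prelude.Def_ParabolicCharacters
import Cfsg.Agent.Lib.Helper39.SL2Half

set_option autoImplicit false
set_option linter.unusedSectionVars false
set_option linter.unusedVariables false
set_option linter.style.haveILetI false

namespace Cfsg.Agent.Lib.Helper39.SL2Count

open Cfsg Matrix Cfsg.Agent.Lib.CT Cfsg.Agent.Lib.Helper39.Borel2 Cfsg.Agent.Lib.Helper39.UMult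
  Cfsg.Agent.Lib.Helper39.UBorel Cfsg.Agent.Lib.Helper39.UOrth Cfsg.Agent.Lib.Helper39.GL2Inst
  Cfsg.Agent.Lib.Helper39.PSInst Cfsg.Agent.Lib.CT.Wedderburn Cfsg.Agent.Lib.Helper39.GL2T1
  Cfsg.Agent.Lib.Helper39.MulCharOrth Cfsg.Agent.Lib.Helper39.Decomp Cfsg.Agent.Lib.Helper39.SL2T1
  Cfsg.Agent.Lib.Helper39.SL2PS Cfsg.Agent.Lib.Helper39.SL2Tri Cfsg.Agent.Lib.CT.FrobRec
  Cfsg.Agent.Lib.Helper39.SL2Conj Cfsg.Agent.Lib.Helper39.SL2Deg Cfsg.Agent.Lib.Helper39.SL2Odd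
  Cfsg.Agent.Lib.Helper39.SL2Twist Cfsg.Agent.Lib.Helper39.SL2Half
open scoped ComplexConjugate

variable {F : Type*} [Field F] [Fintype F] [DecidableEq F]

/-- Orthogonality of the unipotent multiplicities of `SL_2`. -/
theorem sl_mu_orth [Fintype (IrrCharacter (Matrix.SpecialLinearGroup (Fin 2) F))]
    (ψ₀ : AddChar F ℂ) (hψ₀ : ψ₀.IsPrimitive) (t t' : F) :
    ∑ χ : IrrCharacter (Matrix.SpecialLinearGroup (Fin 2) F),
        mu uSL ψ₀ (χ : Matrix.SpecialLinearGroup (Fin 2) F → ℂ) t *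
          conj (mu uSL ψ₀ (χ : Matrix.SpecialLinearGroup (Fin 2) F → ℂ) t') =
      (Fintype.card Fˣ : ℂ) +
        ((Finset.univ.filter fun s : Fˣ => t' * (s : F) = t * ((s⁻¹ : Fˣ) : F)).card : ℂ) :=
  mu_orth_borel (mSL F) mSL_injective (BSL F) mem_BSL_iff LSL mSL_L (WSL F) mSL_W
    uSL mSL_u (fun t : Fˣ => (t : F)) (fun t : Fˣ => ((t⁻¹ : Fˣ) : F)) bmSL bmSL_bijective
    mSL_bmSL ψ₀ hψ₀ t t'

theorem card_filter_same (hodd : Odd (Fintype.card F)) (t : F) (ht : t ≠ 0) :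
    (Finset.univ.filter fun s : Fˣ => t * (s : F) = t * ((s⁻¹ : Fˣ) : F)).card = 2 := by
  have hF := ringChar_ne_two_of_odd hodd
  have h2 : (2 : F) ≠ 0 := Ring.two_ne_zero hF
  have hne : (1 : Fˣ) ≠ -1 := by
    intro h
    have h1 : ((1 : Fˣ) : F) = ((-1 : Fˣ) : F) := congrArg Units.val h
    simp only [Units.val_one, Units.val_neg] at h1
    apply h2
    linear_combination h1
  have hset : (Finset.univ.filter fun s : Fˣ => t * (s : F) = t * ((s⁻¹ : Fˣ) : F)) =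
      {1, -1} := by
    ext s
    simp only [Finset.mem_filter, Finset.mem_univ, true_and, Finset.mem_insert,
      Finset.mem_singleton]
    constructor
    · intro h
      have h1 : (s : F) = ((s⁻¹ : Fˣ) : F) := mul_left_cancel₀ ht h
      have h3 : s = s⁻¹ := Units.ext h1
      have h4 : s * s = 1 := by
        nth_rewrite 2 [h3]
        exact mul_inv_cancel s
      have h5 : ((s : F) - 1) * ((s : F) + 1) = 0 := by
        have := congrArg Units.val h4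
        simp only [Units.val_mul, Units.val_one] at this
        linear_combination this
      rcases mul_eq_zero.mp h5 with h6 | h6
      · left
        apply Units.ext
        simp only [Units.val_one]
        exact sub_eq_zero.mp h6
      · right
        apply Units.ext
        simp only [Units.val_neg, Units.val_one]
        exact eq_neg_of_add_eq_zero_left h6
    · rintro (rfl | rfl)
      · simp
      · simp
  rw [hset, Finset.card_pair hne]

theorem card_filter_diff (t t' : F) (hns : ∀ s : F, s ≠ 0 → t' * s ^ 2 ≠ t) :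
    (Finset.univ.filter fun s : Fˣ => t' * (s : F) = t * ((s⁻¹ : Fˣ) : F)).card = 0 := by
  rw [Finset.card_eq_zero, Finset.filter_eq_empty_iff]
  intro s _ h
  apply hns (s : F) s.ne_zero
  have hs : (s : F) ≠ 0 := s.ne_zero
  have h1 : ((s⁻¹ : Fˣ) : F) = (s : F)⁻¹ := by simp
  rw [h1] at h
  have : t' * (s : F) ^ 2 = (t' * (s : F)) * (s : F) := by ring
  rw [this, h]
  field_simp

/-- The number of irreducible characters `χ` of `SL_2(q)`, `q` odd, whose unipotent multiplicity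
is one at `t` and zero at `t'` (in different square classes) is two. -/
theorem sl_count (hodd : Odd (Fintype.card F))
    [Fintype (IrrCharacter (Matrix.SpecialLinearGroup (Fin 2) F))]
    (ψ₀ : AddChar F ℂ) (hψ₀ : ψ₀.IsPrimitive) (t t' : F) (ht : t ≠ 0) (ht' : t' ≠ 0)
    (hns : ∀ s : F, s ≠ 0 → t' * s ^ 2 ≠ t) :
    ∃ k : IrrCharacter (Matrix.SpecialLinearGroup (Fin 2) F) → ℕ, (∀ χ, k χ ≤ 1) ∧
      (∀ χ, k χ = 1 ↔ (mu uSL ψ₀ (χ : Matrix.SpecialLinearGroup (Fin 2) F → ℂ) t = 1 ∧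
        mu uSL ψ₀ (χ : Matrix.SpecialLinearGroup (Fin 2) F → ℂ) t' = 0)) ∧
      ∑ χ, k χ = 2 := by
  have hex : ∀ χ : IrrCharacter (Matrix.SpecialLinearGroup (Fin 2) F), ∃ n n' : ℕ, n ≤ 1 ∧ n' ≤ 1 ∧
      mu uSL ψ₀ (χ : Matrix.SpecialLinearGroup (Fin 2) F → ℂ) t = n ∧
      mu uSL ψ₀ (χ : Matrix.SpecialLinearGroup (Fin 2) F → ℂ) t' = n' := by
    intro χ
    obtain ⟨n, hn, hn'⟩ := sl_mu_le_one ψ₀ hψ₀ χ.1 χ.2 t ht
    obtain ⟨n', hn2, hn2'⟩ := sl_mu_le_one ψ₀ hψ₀ χ.1 χ.2 t' ht'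
    exact ⟨n, n', hn, hn2, hn', hn2'⟩
  choose n n' hn hn' hmu hmu' using hex
  refine ⟨fun χ => n χ * (1 - n' χ), ?_, ?_, ?_⟩
  · intro χ
    have := hn χ
    have := hn' χ
    have h1 : n χ = 0 ∨ n χ = 1 := by omega
    have h2 : n' χ = 0 ∨ n' χ = 1 := by omega
    rcases h1 with h1 | h1 <;> rcases h2 with h2 | h2 <;> simp [h1, h2]
  · intro χ
    have := hn χ
    have := hn' χ
    have h1 : n χ = 0 ∨ n χ = 1 := by omega
    have h2 : n' χ = 0 ∨ n' χ = 1 := by omega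
    rw [hmu χ, hmu' χ]
    rcases h1 with h1 | h1 <;> rcases h2 with h2 | h2 <;> simp [h1, h2]
  · have h1 := sl_mu_orth ψ₀ hψ₀ t t
    have h2 := sl_mu_orth ψ₀ hψ₀ t t'
    rw [card_filter_same hodd t ht] at h1
    rw [card_filter_diff t t' hns] at h2
    have h3 : ((∑ χ, n χ * (1 - n' χ) : ℕ) : ℂ) = ((2 : ℕ) : ℂ) := by
      have h4 : ∀ χ : IrrCharacter (Matrix.SpecialLinearGroup (Fin 2) F),
          ((n χ * (1 - n' χ) : ℕ) : ℂ) =
          mu uSL ψ₀ (χ : Matrix.SpecialLinearGroup (Fin 2) F → ℂ) t *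
            conj (mu uSL ψ₀ (χ : Matrix.SpecialLinearGroup (Fin 2) F → ℂ) t) -
          mu uSL ψ₀ (χ : Matrix.SpecialLinearGroup (Fin 2) F → ℂ) t *
            conj (mu uSL ψ₀ (χ : Matrix.SpecialLinearGroup (Fin 2) F → ℂ) t') := by
        intro χ
        have := hn χ
        have := hn' χ
        have h1 : n χ = 0 ∨ n χ = 1 := by omega
        have h2 : n' χ = 0 ∨ n' χ = 1 := by omega
        rw [hmu χ, hmu' χ]
        rcases h1 with h1 | h1 <;> rcases h2 with h2 | h2 <;> simp [h1, h2]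
      rw [Nat.cast_sum, Finset.sum_congr rfl (fun χ _ => h4 χ), Finset.sum_sub_distrib, h1, h2]
      push_cast
      ring
    exact_mod_cast h3

/-- At most two irreducible characters have unipotent multiplicity one at `t` and zero at `t'`. -/
theorem type_at_most_two (hodd : Odd (Fintype.card F))
    (ψ₀ : AddChar F ℂ) (hψ₀ : ψ₀.IsPrimitive) (t t' : F) (ht : t ≠ 0) (ht' : t' ≠ 0)
    (hns : ∀ s : F, s ≠ 0 → t' * s ^ 2 ≠ t)
    (χ₁ χ₂ χ₃ : Matrix.SpecialLinearGroup (Fin 2) F → ℂ)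
    (h₁ : IsIrrCharacter (Matrix.SpecialLinearGroup (Fin 2) F) χ₁)
    (h₂ : IsIrrCharacter (Matrix.SpecialLinearGroup (Fin 2) F) χ₂)
    (h₃ : IsIrrCharacter (Matrix.SpecialLinearGroup (Fin 2) F) χ₃)
    (h12 : χ₁ ≠ χ₂) (h13 : χ₁ ≠ χ₃) (h23 : χ₂ ≠ χ₃)
    (e₁ : mu uSL ψ₀ χ₁ t = 1) (e₁' : mu uSL ψ₀ χ₁ t' = 0)
    (e₂ : mu uSL ψ₀ χ₂ t = 1) (e₂' : mu uSL ψ₀ χ₂ t' = 0)
    (e₃ : mu uSL ψ₀ χ₃ t = 1) (e₃' : mu uSL ψ₀ χ₃ t' = 0) : False := by
  classical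
  haveI := finite_irrCharacter (Matrix.SpecialLinearGroup (Fin 2) F)
  haveI := Fintype.ofFinite (IrrCharacter (Matrix.SpecialLinearGroup (Fin 2) F))
  obtain ⟨k, hk1, hkiff, hsum⟩ := sl_count hodd ψ₀ hψ₀ t t' ht ht' hns
  have hle : ∑ χ ∈ ({⟨χ₁, h₁⟩, ⟨χ₂, h₂⟩, ⟨χ₃, h₃⟩} :
      Finset (IrrCharacter (Matrix.SpecialLinearGroup (Fin 2) F))), k χ ≤ ∑ χ, k χ :=
    Finset.sum_le_sum_of_subset (Finset.subset_univ _)
  have hn12 : (⟨χ₁, h₁⟩ : IrrCharacter (Matrix.SpecialLinearGroup (Fin 2) F)) ≠ ⟨χ₂, h₂⟩ :=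
    fun h => h12 (congrArg Subtype.val h)
  have hn13 : (⟨χ₁, h₁⟩ : IrrCharacter (Matrix.SpecialLinearGroup (Fin 2) F)) ≠ ⟨χ₃, h₃⟩ :=
    fun h => h13 (congrArg Subtype.val h)
  have hn23 : (⟨χ₂, h₂⟩ : IrrCharacter (Matrix.SpecialLinearGroup (Fin 2) F)) ≠ ⟨χ₃, h₃⟩ :=
    fun h => h23 (congrArg Subtype.val h)
  rw [Finset.sum_insert (by simp [hn12, hn13]), Finset.sum_insert (by simp [hn23]),
    Finset.sum_singleton, (hkiff ⟨χ₁, h₁⟩).mpr ⟨e₁, e₁'⟩, (hkiff ⟨χ₂, h₂⟩).mpr ⟨e₂, e₂'⟩,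
    (hkiff ⟨χ₃, h₃⟩).mpr ⟨e₃, e₃'⟩, hsum] at hle
  omega

/-- There is a second irreducible character with unipotent multiplicity one at `t` and zero at
`t'`. -/
theorem type_exists_other (hodd : Odd (Fintype.card F))
    (ψ₀ : AddChar F ℂ) (hψ₀ : ψ₀.IsPrimitive) (t t' : F) (ht : t ≠ 0) (ht' : t' ≠ 0)
    (hns : ∀ s : F, s ≠ 0 → t' * s ^ 2 ≠ t)
    (ξ : Matrix.SpecialLinearGroup (Fin 2) F → ℂ)
    (hξ : IsIrrCharacter (Matrix.SpecialLinearGroup (Fin 2) F) ξ) :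
    ∃ η : Matrix.SpecialLinearGroup (Fin 2) F → ℂ,
      IsIrrCharacter (Matrix.SpecialLinearGroup (Fin 2) F) η ∧ η ≠ ξ ∧
      mu uSL ψ₀ η t = 1 ∧ mu uSL ψ₀ η t' = 0 := by
  classical
  haveI := finite_irrCharacter (Matrix.SpecialLinearGroup (Fin 2) F)
  haveI := Fintype.ofFinite (IrrCharacter (Matrix.SpecialLinearGroup (Fin 2) F))
  obtain ⟨k, hk1, hkiff, hsum⟩ := sl_count hodd ψ₀ hψ₀ t t' ht ht' hns
  by_contra hcon
  push Not at hcon
  have h1 : ∑ χ, k χ = k ⟨ξ, hξ⟩ := by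
    apply Finset.sum_eq_single
    · intro χ _ hne
      by_contra h0
      have h2 : k χ = 1 := by
        have := hk1 χ
        omega
      obtain ⟨h3, h4⟩ := (hkiff χ).mp h2
      exact hcon χ.1 χ.2 (fun h => hne (Subtype.ext h)) h3 h4
    · intro h
      exact absurd (Finset.mem_univ _) h
  have := hk1 ⟨ξ, hξ⟩
  omega

end Cfsg.Agent.Lib.Helper39.SL2Count
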