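-- Types of the half-degree irreducible characters of SL_2(q), q odd.
import Mathlib
import Cfsg.Prelude.Def_Characters
import Cfsg.Prelude.Def_ParabolicCharacters
import Cfsg.Agent.Lib.Helper39.SL2Count

set_option autoImplicit false
set_option linter.unusedSectionVars false
set_option linter.unusedVariables false
set_option linter.style.haveILetI false

namespace Cfsg.Agent.Lib.Helper39.SL2Types

open Cfsg Matrix Cfsg.Agent.Lib.CT Cfsg.Agent.Lib.Helper39.Borel2 Cfsg.Agent.Lib.Helper39.UMult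
  Cfsg.Agent.Lib.Helper39.UBorel Cfsg.Agent.Lib.Helper39.UOrth Cfsg.Agent.Lib.Helper39.GL2Inst
  Cfsg.Agent.Lib.Helper39.PSInst Cfsg.Agent.Lib.CT.Wedderburn Cfsg.Agent.Lib.Helper39.GL2T1
  Cfsg.Agent.Lib.Helper39.MulCharOrth Cfsg.Agent.Lib.Helper39.Decomp Cfsg.Agent.Lib.Helper39.SL2T1
  Cfsg.Agent.Lib.Helper39.SL2PS Cfsg.Agent.Lib.Helper39.SL2Tri Cfsg.Agent.Lib.CT.FrobRec
  Cfsg.Agent.Lib.Helper39.SL2Conj Cfsg.Agent.Lib.Helper39.SL2Deg Cfsg.Agent.Lib.Helper39.SL2Odd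
  Cfsg.Agent.Lib.Helper39.SL2Twist Cfsg.Agent.Lib.Helper39.SL2Half
  Cfsg.Agent.Lib.Helper39.SL2Count
open scoped ComplexConjugate

variable {F : Type*} [Field F] [Fintype F] [DecidableEq F]

/-- An odd field order is at least three. -/
theorem three_le_card (hodd : Odd (Fintype.card F)) : 3 ≤ Fintype.card F := by
  have h1 : 1 < Fintype.card F := Fintype.one_lt_card
  rcases hodd with ⟨k, hk⟩
  omega

/-- The type of an irreducible character of degree `(q + 1) / 2`, for `q ≥ 5`. -/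
theorem type_of_degree_plus (hodd : Odd (Fintype.card F)) (hq : 5 ≤ Fintype.card F)
    (ψ₀ : AddChar F ℂ) (hψ₀ : ψ₀.IsPrimitive) {ν : F} (hν : ¬ IsSquare ν)
    (χ : Matrix.SpecialLinearGroup (Fin 2) F → ℂ)
    (hχ : IsIrrCharacter (Matrix.SpecialLinearGroup (Fin 2) F) χ)
    (hdeg : χ 1 = (((Fintype.card F + 1) / 2 : ℕ) : ℂ)) :
    (Fintype.card F : ℂ)⁻¹ * ∑ x : F, χ (uSL x) = 1 ∧ ∃ bp bm : ℕ, bp + bm = 1 ∧
      mu uSL ψ₀ χ 1 = bp ∧ mu uSL ψ₀ χ ν = bm ∧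
      χ (uSL 1) = 1 - 1 / 2 + ((bp : ℂ) - bm) / 2 * gaussSum (qc F) ψ₀ := by
  obtain ⟨a, bp, bm, hbp, hbm, ha, hmu1, hmuν, hdeg', hval, htriv, -⟩ :=
    sl_type hodd ψ₀ hψ₀ hν χ hχ
  have hnat : a + (bp + bm) * ((Fintype.card F - 1) / 2) = (Fintype.card F + 1) / 2 := by
    have := hdeg'.symm.trans hdeg
    exact_mod_cast this
  obtain ⟨k, hk⟩ := hodd
  have hk1 : (Fintype.card F - 1) / 2 = k := by omega
  have hk2 : (Fintype.card F + 1) / 2 = k + 1 := by omega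
  rw [hk1, hk2] at hnat
  have hb : bp + bm = 1 := by
    have h012 : bp + bm = 0 ∨ bp + bm = 1 ∨ bp + bm = 2 := by omega
    rcases h012 with h0 | h1 | h2
    · exfalso
      have h3 := htriv h0
      rw [h3, hk2] at hdeg
      have : ((1 : ℕ) : ℂ) = ((k + 1 : ℕ) : ℂ) := by
        rw [← hdeg]
        simp
      have : (1 : ℕ) = k + 1 := by exact_mod_cast this
      omega
    · exact h1
    · exfalso
      rw [h2] at hnat
      omega
  have ha1 : a = 1 := by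
    rw [hb] at hnat
    omega
  refine ⟨by rw [ha, ha1]; simp, bp, bm, hb, hmu1, hmuν, ?_⟩
  rw [hval, ha1]
  have : ((bp : ℂ) + bm) = 1 := by exact_mod_cast hb
  rw [this]
  simp

/-- The type of an irreducible character of degree `(q - 1) / 2`, for `q ≥ 5`. -/
theorem type_of_degree_minus (hodd : Odd (Fintype.card F)) (hq : 5 ≤ Fintype.card F)
    (ψ₀ : AddChar F ℂ) (hψ₀ : ψ₀.IsPrimitive) {ν : F} (hν : ¬ IsSquare ν)
    (χ : Matrix.SpecialLinearGroup (Fin 2) F → ℂ)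
    (hχ : IsIrrCharacter (Matrix.SpecialLinearGroup (Fin 2) F) χ)
    (hdeg : χ 1 = (((Fintype.card F - 1) / 2 : ℕ) : ℂ)) :
    (Fintype.card F : ℂ)⁻¹ * ∑ x : F, χ (uSL x) = 0 ∧ ∃ bp bm : ℕ, bp + bm = 1 ∧
      mu uSL ψ₀ χ 1 = bp ∧ mu uSL ψ₀ χ ν = bm ∧
      χ (uSL 1) = - (1 / 2) + ((bp : ℂ) - bm) / 2 * gaussSum (qc F) ψ₀ := by
  obtain ⟨a, bp, bm, hbp, hbm, ha, hmu1, hmuν, hdeg', hval, htriv, -⟩ :=
    sl_type hodd ψ₀ hψ₀ hν χ hχ
  have hnat : a + (bp + bm) * ((Fintype.card F - 1) / 2) = (Fintype.card F - 1) / 2 := by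
    have := hdeg'.symm.trans hdeg
    exact_mod_cast this
  obtain ⟨k, hk⟩ := hodd
  have hk1 : (Fintype.card F - 1) / 2 = k := by omega
  rw [hk1] at hnat
  have hb : bp + bm = 1 := by
    have h012 : bp + bm = 0 ∨ bp + bm = 1 ∨ bp + bm = 2 := by omega
    rcases h012 with h0 | h1 | h2
    · exfalso
      have h3 := htriv h0
      rw [h3, hk1] at hdeg
      have : ((1 : ℕ) : ℂ) = ((k : ℕ) : ℂ) := by
        rw [← hdeg]
        simp
      have : (1 : ℕ) = k := by exact_mod_cast this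
      omega
    · exact h1
    · exfalso
      rw [h2] at hnat
      omega
  have ha1 : a = 0 := by
    rw [hb] at hnat
    omega
  refine ⟨by rw [ha, ha1]; simp, bp, bm, hb, hmu1, hmuν, ?_⟩
  rw [hval, ha1]
  have : ((bp : ℂ) + bm) = 1 := by exact_mod_cast hb
  rw [this]
  simp

/-- An irreducible character of degree `(q + 1) / 2` with a one-dimensional space of unipotent
invariants is a constituent of the principal series function of the quadratic character. -/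
theorem half_of_a_one (hodd : Odd (Fintype.card F))
    (χ : Matrix.SpecialLinearGroup (Fin 2) F → ℂ)
    (hχ : IsIrrCharacter (Matrix.SpecialLinearGroup (Fin 2) F) χ)
    (hdeg : χ 1 = (((Fintype.card F + 1) / 2 : ℕ) : ℂ))
    (ha : (Fintype.card F : ℂ)⁻¹ * ∑ x : F, χ (uSL x) = 1) :
    ∃ χ' : Matrix.SpecialLinearGroup (Fin 2) F → ℂ,
      IsIrrCharacter (Matrix.SpecialLinearGroup (Fin 2) F) χ' ∧ χ' ≠ χ ∧
      slPS (qc F) = χ + χ' := by
  have hF := ringChar_ne_two_of_odd hodd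
  have h3 := three_le_card hodd
  obtain ⟨k, hk⟩ := hodd
  have hk2 : (Fintype.card F + 1) / 2 = k + 1 := by omega
  obtain ⟨a, ha', htri⟩ := sl_trichotomy χ hχ
  have ha1 : a = 1 := by
    have := ha'.symm.trans ha
    exact_mod_cast this
  rcases htri with ⟨h0, -⟩ | ⟨-, α, χ', hα2, hχ', hne, hdec⟩ | ⟨h2, -⟩
  · omega
  · refine ⟨χ', hχ', hne, ?_⟩
    have hα1 : α ≠ 1 := by
      intro h1
      have hin : classInner (fun _ : Matrix.SpecialLinearGroup (Fin 2) F => (1 : ℂ)) (slPS α) ≠ 0 := by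
        rw [Clifford.classInner_conj_symm, slPS_inner_one, if_pos h1]
        simp
      rcases mem_of_decomp Ops.isIrrCharacter_one hχ hχ' hdec hin with h | h
      · rw [← h, hk2] at hdeg
        have : ((1 : ℕ) : ℂ) = ((k + 1 : ℕ) : ℂ) := by
          rw [← hdeg]
          simp
        have : (1 : ℕ) = k + 1 := by exact_mod_cast this
        omega
      · have h4 := congrFun hdec 1
        rw [slPS_one, Pi.add_apply, ← h, hdeg, hk2, hk] at h4
        have : ((2 * k + 1 + 1 : ℕ) : ℂ) = ((k + 1 + 1 : ℕ) : ℂ) := by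
          push_cast
          push_cast at h4
          linear_combination h4
        have : 2 * k + 1 + 1 = k + 1 + 1 := by exact_mod_cast this
        omega
    rw [← quad_unique hF α hα2 hα1]
    exact hdec
  · omega

/-- The two constituents of the principal series function of the quadratic character, labelled by
their unipotent multiplicities. -/
theorem exists_half_type (hodd : Odd (Fintype.card F)) (ψ₀ : AddChar F ℂ) (hψ₀ : ψ₀.IsPrimitive)
    {ν : F} (hν : ¬ IsSquare ν) :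
    ∃ ξp ξm : Matrix.SpecialLinearGroup (Fin 2) F → ℂ,
      IsIrrCharacter (Matrix.SpecialLinearGroup (Fin 2) F) ξp ∧
      IsIrrCharacter (Matrix.SpecialLinearGroup (Fin 2) F) ξm ∧ ξm ≠ ξp ∧
      slPS (qc F) = ξp + ξm ∧
      (Fintype.card F : ℂ)⁻¹ * ∑ x : F, ξp (uSL x) = 1 ∧
      (Fintype.card F : ℂ)⁻¹ * ∑ x : F, ξm (uSL x) = 1 ∧
      mu uSL ψ₀ ξp 1 = 1 ∧ mu uSL ψ₀ ξp ν = 0 ∧ mu uSL ψ₀ ξm 1 = 0 ∧ mu uSL ψ₀ ξm ν = 1 := by
  have hF := ringChar_ne_two_of_odd hodd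
  have hν0 : ν ≠ 0 := ne_zero_of_not_isSquare hν
  obtain ⟨ξ, ξ', hξ, hξ', hne, hdec⟩ := exists_half (qc F) qc_sq
  have hdec' : slPS (qc F) = ξ' + ξ := by rw [hdec, add_comm]
  obtain ⟨ha, hb, -, -⟩ := half_props hodd ψ₀ hψ₀ (Units.mk0 ν hν0) hν (qc F) (qc_ne_one hF)
    ξ ξ' hξ hξ' hne hdec
  obtain ⟨ha', hb', -, -⟩ := half_props hodd ψ₀ hψ₀ (Units.mk0 ν hν0) hν (qc F) (qc_ne_one hF)
    ξ' ξ hξ' hξ hne.symm hdec'
  simp only [Units.val_mk0] at hb hb'
  obtain ⟨a, bp, bm, hbp, hbm, -, hmu1, hmuν, -, -, -, -⟩ := sl_type hodd ψ₀ hψ₀ hν ξ hξ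
  have hm1 := mu_slPS ψ₀ hψ₀ (qc F) 1
  rw [hdec, mu_add, if_neg one_ne_zero] at hm1
  have hmν := mu_slPS ψ₀ hψ₀ (qc F) ν
  rw [hdec, mu_add, if_neg hν0] at hmν
  have hbb : bp + bm = 1 := by
    rw [hmu1, hmuν] at hb
    exact_mod_cast hb
  have hcases : (bp = 1 ∧ bm = 0) ∨ (bp = 0 ∧ bm = 1) := by omega
  rcases hcases with ⟨h1, h2⟩ | ⟨h1, h2⟩
  · rw [h1] at hmu1
    rw [h2] at hmuν
    simp only [Nat.cast_one, Nat.cast_zero] at hmu1 hmuν
    refine ⟨ξ, ξ', hξ, hξ', hne, hdec, ha, ha', hmu1, hmuν, ?_, ?_⟩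
    · rw [hmu1] at hm1
      linear_combination hm1
    · rw [hmuν] at hmν
      linear_combination hmν
  · rw [h1] at hmu1
    rw [h2] at hmuν
    simp only [Nat.cast_one, Nat.cast_zero] at hmu1 hmuν
    refine ⟨ξ', ξ, hξ', hξ, hne.symm, hdec', ha', ha, ?_, ?_, hmu1, hmuν⟩
    · rw [hmu1] at hm1
      linear_combination hm1
    · rw [hmuν] at hmν
      linear_combination hmν

end Cfsg.Agent.Lib.Helper39.SL2Types
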