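-- The irreducible character of degree two of SL_2(3) without unipotent invariants.
import Mathlib
import Cfsg.Prelude.Def_Characters
import Cfsg.Prelude.Def_ParabolicCharacters
import Cfsg.Agent.Lib.Helper39.SL2Types

set_option autoImplicit false
set_option linter.unusedSectionVars false
set_option linter.unusedVariables false
set_option linter.style.haveILetI false

namespace Cfsg.Agent.Lib.Helper39.SL2Three

open Cfsg Matrix Cfsg.Agent.Lib.CT Cfsg.Agent.Lib.Helper39.Borel2 Cfsg.Agent.Lib.Helper39.UMult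
  Cfsg.Agent.Lib.Helper39.UBorel Cfsg.Agent.Lib.Helper39.UOrth Cfsg.Agent.Lib.Helper39.GL2Inst
  Cfsg.Agent.Lib.Helper39.PSInst Cfsg.Agent.Lib.CT.Wedderburn Cfsg.Agent.Lib.Helper39.GL2T1
  Cfsg.Agent.Lib.Helper39.MulCharOrth Cfsg.Agent.Lib.Helper39.Decomp Cfsg.Agent.Lib.Helper39.SL2T1
  Cfsg.Agent.Lib.Helper39.SL2PS Cfsg.Agent.Lib.Helper39.SL2Tri Cfsg.Agent.Lib.CT.FrobRec
  Cfsg.Agent.Lib.Helper39.SL2Conj Cfsg.Agent.Lib.Helper39.SL2Deg Cfsg.Agent.Lib.Helper39.SL2Odd
  Cfsg.Agent.Lib.Helper39.SL2Twist Cfsg.Agent.Lib.Helper39.SL2Half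
  Cfsg.Agent.Lib.Helper39.SL2Count Cfsg.Agent.Lib.Helper39.SL2Types
open scoped ComplexConjugate

variable {F : Type*} [Field F] [Fintype F] [DecidableEq F]

/-- An irreducible character with unipotent multiplicities `(1, 0)` on the two square classes which
is not a constituent of the principal series of the quadratic character has no unipotent
invariants. -/
theorem a_zero_of_type (hodd : Odd (Fintype.card F)) (ψ₀ : AddChar F ℂ) (hψ₀ : ψ₀.IsPrimitive)
    {ν : F} (hν : ¬ IsSquare ν)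
    (ξp ξm : Matrix.SpecialLinearGroup (Fin 2) F → ℂ)
    (hξp : IsIrrCharacter (Matrix.SpecialLinearGroup (Fin 2) F) ξp)
    (hξm : IsIrrCharacter (Matrix.SpecialLinearGroup (Fin 2) F) ξm)
    (hdec : slPS (qc F) = ξp + ξm) (hm1 : mu uSL ψ₀ ξm 1 = 0)
    (η : Matrix.SpecialLinearGroup (Fin 2) F → ℂ)
    (hη : IsIrrCharacter (Matrix.SpecialLinearGroup (Fin 2) F) η) (hne : η ≠ ξp)
    (h1 : mu uSL ψ₀ η 1 = 1) (h2 : mu uSL ψ₀ η ν = 0) :
    (Fintype.card F : ℂ)⁻¹ * ∑ x : F, η (uSL x) = 0 := by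
  have hF := ringChar_ne_two_of_odd hodd
  have hν0 : ν ≠ 0 := ne_zero_of_not_isSquare hν
  obtain ⟨a, ha, htri⟩ := sl_trichotomy η hη
  rcases htri with ⟨h0, -⟩ | ⟨-, α, η', hα2, hη', hne', hdec'⟩ | ⟨-, α, -, heq⟩
  · rw [ha, h0]
    simp
  · exfalso
    by_cases hα1 : α = 1
    · have hin : classInner (fun _ : Matrix.SpecialLinearGroup (Fin 2) F => (1 : ℂ)) (slPS α) ≠ 0 := by
        rw [Clifford.classInner_conj_symm, slPS_inner_one, if_pos hα1]
        simp
      rcases mem_of_decomp Ops.isIrrCharacter_one hη hη' hdec' hin with h | h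
      · rw [← h, mu_trivial ψ₀ hψ₀ 1 one_ne_zero] at h1
        exact zero_ne_one h1
      · have h3 := mu_slPS ψ₀ hψ₀ α ν
        rw [hdec', mu_add, h2, ← h, mu_trivial ψ₀ hψ₀ ν hν0, if_neg hν0] at h3
        simp at h3
    · have hαq := quad_unique hF α hα2 hα1
      rw [hαq] at hdec'
      have hin := (inner_of_decomp hη hη' hne' hdec').2
      rcases mem_of_decomp hη hξp hξm hdec (by rw [hin]; exact one_ne_zero) with h | h
      · exact hne h
      · rw [h, hm1] at h1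
        exact zero_ne_one h1
  · exfalso
    rw [heq, mu_slPS ψ₀ hψ₀ α ν, if_neg hν0] at h2
    exact one_ne_zero h2

/-- For `q = 3`, an irreducible character of degree two of `SL_2(3)` all of whose nontrivial
unipotent multiplicities are one vanishes at the elements without eigenvectors. -/
theorem cuspidal_three_elliptic (hodd : Odd (Fintype.card F)) (h3 : Fintype.card F = 3)
    (ψ₀ : AddChar F ℂ) (hψ₀ : ψ₀.IsPrimitive)
    (χ : Matrix.SpecialLinearGroup (Fin 2) F → ℂ)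
    (hχ : IsIrrCharacter (Matrix.SpecialLinearGroup (Fin 2) F) χ) (hdeg : χ 1 = 2)
    (hmu : ∀ t : F, t ≠ 0 → mu uSL ψ₀ χ t = 1)
    (g : Matrix.SpecialLinearGroup (Fin 2) F)
    (hno : ∀ (c : F) (v : Fin 2 → F), v ≠ 0 → (g : Matrix (Fin 2) (Fin 2) F).mulVec v ≠ c • v) :
    χ g = 0 := by
  have hF := ringChar_ne_two_of_odd hodd
  obtain ⟨ν, hν⟩ := FiniteField.exists_nonsquare hF
  have hν0 : ν ≠ 0 := ne_zero_of_not_isSquare hν
  obtain ⟨ξp, ξm, hξp, hξm, -, hdec, -, -, hp1, hpν, hm1, -⟩ := exists_half_type hodd ψ₀ hψ₀ hν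
  have hns1 : ∀ s : F, s ≠ 0 → ν * s ^ 2 ≠ 1 := by
    intro s hs h
    apply hν
    refine ⟨s⁻¹, ?_⟩
    field_simp
    linear_combination h
  obtain ⟨η, hη, hne, hη1, hην⟩ :=
    type_exists_other hodd ψ₀ hψ₀ 1 ν one_ne_zero hν0 hns1 ξp hξp
  have haη := a_zero_of_type hodd ψ₀ hψ₀ hν ξp ξm hξp hξm hdec hm1 η hη hne hη1 hην
  obtain ⟨m, hm, hmle, hmsq, hdegη, hval, ha⟩ := sl_data ψ₀ hψ₀ η hη
  have hm0 : m 0 = 0 := by
    have := ha.symm.trans haη
    exact_mod_cast this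
  have hm1' : m 1 = 1 := by
    have := (hm 1).symm.trans hη1
    exact_mod_cast this
  have hmν : m ν = 0 := by
    have := (hm ν).symm.trans hην
    exact_mod_cast this
  have hsum : ∑ t : F, m t = 1 := by
    rw [sum_m hF hodd m hmsq hν, hm0, hm1', hmν, h3]
  have hηdeg : η 1 = 1 := by
    rw [hdegη, hsum]
    simp
  have hprod : (Fintype.card F : ℂ)⁻¹ * ∑ x : F, (χ * η) (uSL x) = 1 := by
    have h1 : ∀ x : F, (χ * η) (uSL x) = ∑ t : F, (m t : ℂ) * (χ (uSL x) * ψ₀ (t * x)) := by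
      intro x
      rw [Pi.mul_apply, hval x, Finset.mul_sum]
      apply Finset.sum_congr rfl
      intro t _
      ring
    rw [Finset.sum_congr rfl (fun x _ => h1 x), Finset.sum_comm, Finset.mul_sum]
    have h2 : ∀ t : F, (Fintype.card F : ℂ)⁻¹ *
        ∑ x : F, (m t : ℂ) * (χ (uSL x) * ψ₀ (t * x)) = (m t : ℂ) := by
      intro t
      rw [← Finset.mul_sum, ← mul_assoc, mul_comm _ (m t : ℂ), mul_assoc]
      have h4 : (Fintype.card F : ℂ)⁻¹ * ∑ x : F, χ (uSL x) * ψ₀ (t * x) =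
          mu uSL ψ₀ χ (-t) := by
        rw [mu_def]
        congr 1
        apply Finset.sum_congr rfl
        intro x _
        rw [neg_mul, AddChar.map_neg_eq_conj, Complex.conj_conj]
      rw [h4]
      by_cases ht : t = 0
      · subst ht
        rw [hm0]
        simp
      · rw [hmu (-t) (neg_ne_zero.mpr ht), mul_one]
    rw [Finset.sum_congr rfl (fun t _ => h2 t), ← Nat.cast_sum, hsum]
    simp
  have hirr : IsIrrCharacter (Matrix.SpecialLinearGroup (Fin 2) F) (χ * η) :=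
    LinChar.isIrrCharacter_mul_linear hχ (isCharacter_of_irr hη) hηdeg
  have hdeg2 : (χ * η) 1 = (((Fintype.card F + 1) / 2 : ℕ) : ℂ) := by
    rw [Pi.mul_apply, hdeg, hηdeg, h3]
    norm_num
  obtain ⟨χ', hχ', hne', hdec'⟩ := half_of_a_one hodd (χ * η) hirr hdeg2 hprod
  have h0 := half_elliptic hodd (qc F) (qc_ne_one hF) (χ * η) χ' hirr hχ' hne' hdec' g hno
  rw [Pi.mul_apply] at h0
  rcases mul_eq_zero.mp h0 with h | h
  · exact h
  · exact absurd h (LinChar.linear_ne_zero (isCharacter_of_irr hη) hηdeg g)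

end Cfsg.Agent.Lib.Helper39.SL2Three
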